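import Mathlib
import Cfsg.Prelude.Def_Classical

set_option autoImplicit false

namespace Cfsg.Agent.Helper20.NS5c

variable {ι : Type} [Fintype ι] [DecidableEq ι] {F : Type*} [Field F]

/-- In characteristic two, `c ^ 2 = 1` forces `c = 1`. -/
theorem eq_one_of_sq (hch : (2 : F) = 0) (c : F) (hc : c ^ 2 = 1) : c = 1 := by
  have h1 : (c - 1) ^ 2 = 0 := by
    have : (c - 1) ^ 2 = c ^ 2 - 2 * c + 1 := by ring
    rw [this, hc, hch]
    have h2 : (1 : F) + 1 = 0 := by rw [← hch]; norm_num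
    linear_combination h2
  have h3 : c - 1 = 0 := by simpa using h1
  exact sub_eq_zero.mp h3

/-- In characteristic two squaring is injective. -/
theorem sq_inj (hch : (2 : F) = 0) (s t : F) (h : s ^ 2 = t ^ 2) : s = t := by
  have h1 : (s - t) ^ 2 = 0 := by
    have : (s - t) ^ 2 = s ^ 2 - 2 * (s * t) + t ^ 2 := by ring
    rw [this, h, hch]
    have h2 : (1 : F) + 1 = 0 := by rw [← hch]; norm_num
    linear_combination (t ^ 2) * h2
  have h3 : s - t = 0 := by simpa using h1
  exact sub_eq_zero.mp h3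

/-- In a finite field of characteristic two every element is a square. -/
theorem exists_sq [Finite F] (hch : (2 : F) = 0) (t : F) : ∃ s : F, s ^ 2 = t := by
  have hinj : Function.Injective (fun s : F => s ^ 2) := fun s t h => sq_inj hch s t h
  exact (Finite.injective_iff_surjective.mp hinj) t

variable (Q : (ι → F) → F)

theorem Q_zero (hsm : ∀ (c : F) (v : ι → F), Q (c • v) = c ^ 2 * Q v) : Q 0 = 0 := by
  have h := hsm 0 0
  simpa using h

/-- Normalising a nonsingular vector to norm one. -/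
theorem exists_norm_one [Finite F] (hsm : ∀ (c : F) (v : ι → F), Q (c • v) = c ^ 2 * Q v)
    (hch : (2 : F) = 0) (v : ι → F) (hv : Q v ≠ 0) :
    ∃ s : F, s ≠ 0 ∧ Q (s • v) = 1 := by
  obtain ⟨s, hs⟩ := exists_sq hch (Q v)⁻¹
  refine ⟨s, ?_, ?_⟩
  · rintro rfl
    have : (Q v)⁻¹ = 0 := by rw [← hs]; simp
    exact hv (inv_eq_zero.mp this)
  · rw [hsm, hs, inv_mul_cancel₀ hv]

/-- A one-dimensional subspace is spanned by any of its nonzero vectors. -/
theorem eq_span (W : Submodule F (ι → F)) (hW : Module.finrank F ↥W = 1) (v : ι → F)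
    (hvW : v ∈ W) (hv : v ≠ 0) : W = F ∙ v := by
  symm
  apply Submodule.eq_of_le_of_finrank_eq
  · rw [Submodule.span_singleton_le_iff_mem]
    exact hvW
  · rw [hW]
    exact finrank_span_singleton hv

/-- (R3, counting) In characteristic two over a finite field, nonsingular points correspond
bijectively to vectors of norm one. -/
theorem card_points_eq [Finite F] (hsm : ∀ (c : F) (v : ι → F), Q (c • v) = c ^ 2 * Q v)
    (hch : (2 : F) = 0) :
    Nat.card {W : Submodule F (ι → F) // Module.finrank F ↥W = 1 ∧ ∃ v ∈ W, Q v ≠ 0} =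
      Nat.card {v : ι → F // Q v = 1} := by
  classical
  have hv0 : ∀ v : {v : ι → F // Q v = 1}, (v : ι → F) ≠ 0 := by
    intro v h0
    have h1 := v.2
    rw [h0, Q_zero Q hsm] at h1
    exact zero_ne_one h1
  let f : {v : ι → F // Q v = 1} →
      {W : Submodule F (ι → F) // Module.finrank F ↥W = 1 ∧ ∃ v ∈ W, Q v ≠ 0} :=
    fun v => ⟨F ∙ (v : ι → F), finrank_span_singleton (hv0 v), v,
      Submodule.mem_span_singleton_self _, by rw [v.2]; exact one_ne_zero⟩
  have hf : Function.Bijective f := by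
    constructor
    · intro v w hvw
      have h1 : (F ∙ (v : ι → F)) = F ∙ (w : ι → F) := congrArg Subtype.val hvw
      have h2 : (w : ι → F) ∈ F ∙ (v : ι → F) := by
        rw [h1]; exact Submodule.mem_span_singleton_self _
      obtain ⟨c, hc⟩ := Submodule.mem_span_singleton.mp h2
      have h3 : c ^ 2 = 1 := by
        have h4 := hsm c (v : ι → F)
        rw [hc, w.2, v.2, mul_one] at h4
        exact h4.symm
      have h5 := eq_one_of_sq hch c h3
      apply Subtype.ext
      rw [← hc, h5, one_smul]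
    · rintro ⟨W, hW1, v0, hv0W, hQv0⟩
      obtain ⟨s, hs0, hs⟩ := exists_norm_one Q hsm hch v0 hQv0
      refine ⟨⟨s • v0, hs⟩, ?_⟩
      apply Subtype.ext
      show (F ∙ (s • v0)) = W
      have hsv0 : s • v0 ≠ 0 := by
        intro h0
        rw [h0, Q_zero Q hsm] at hs
        exact zero_ne_one hs
      exact (eq_span W hW1 (s • v0) (W.smul_mem s hv0W) hsv0).symm
  exact (Nat.card_congr (Equiv.ofBijective f hf)).symm

/-- (R3, divisibility form). -/
theorem dvd_card_norm_one [Finite F] (hsm : ∀ (c : F) (v : ι → F), Q (c • v) = c ^ 2 * Q v)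
    (hch : (2 : F) = 0) (r : ℕ)
    (hr : r ∣ Nat.card {W : Submodule F (ι → F) //
      Module.finrank F ↥W = 1 ∧ ∃ v ∈ W, Q v ≠ 0}) :
    r ∣ Nat.card {v : ι → F // Q v = 1} := by
  rw [← card_points_eq Q hsm hch]
  exact hr

/-- (R3, fixed vector) An isometry leaving a nonsingular point invariant fixes its vector of
norm one (characteristic two, finite field). -/
theorem exists_fixed_norm_one [Finite F]
    (hsm : ∀ (c : F) (v : ι → F), Q (c • v) = c ^ 2 * Q v) (hch : (2 : F) = 0)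
    (x : Matrix ι ι F) (hx : ∀ v : ι → F, Q (x.mulVec v) = Q v)
    (h : ∃ W : Submodule F (ι → F), (Module.finrank F ↥W = 1 ∧ ∃ v ∈ W, Q v ≠ 0) ∧
      W.map (Matrix.toLin' x) ≤ W) :
    ∃ v : ι → F, Q v = 1 ∧ x.mulVec v = v := by
  obtain ⟨W, ⟨hW1, v, hvW, hQv⟩, hinv⟩ := h
  have hv0 : (⟨v, hvW⟩ : ↥W) ≠ 0 := by
    intro h0
    apply hQv
    have h1 : v = 0 := congrArg Subtype.val h0
    rw [h1]
    exact Q_zero Q hsm
  have hxv : x.mulVec v ∈ W := by
    apply hinv
    exact Submodule.mem_map.mpr ⟨v, hvW, Matrix.toLin'_apply x v⟩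
  obtain ⟨c, hc⟩ := (finrank_eq_one_iff_of_nonzero' ⟨v, hvW⟩ hv0).mp hW1 ⟨x.mulVec v, hxv⟩
  have hc' : x.mulVec v = c • v := (congrArg Subtype.val hc).symm
  have hc2 : c ^ 2 = 1 := by
    have h1 := hx v
    rw [hc', hsm] at h1
    have h2 : (c ^ 2 - 1) * Q v = 0 := by rw [sub_mul, h1, one_mul, sub_self]
    rcases mul_eq_zero.mp h2 with h3 | h3
    · exact sub_eq_zero.mp h3
    · exact absurd h3 hQv
  have hc1 := eq_one_of_sq hch c hc2
  rw [hc1, one_smul] at hc'
  obtain ⟨s, -, hs⟩ := exists_norm_one Q hsm hch v hQv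
  refine ⟨s • v, hs, ?_⟩
  rw [Matrix.mulVec_smul, hc']

/-- Membership in the frozen isometry group, unfolded. -/
theorem mem_iso_iff (x : GL ι F) :
    x ∈ Cfsg.isometryGroup F Q ↔
      ∀ v : ι → F, Q ((x : Matrix ι ι F).mulVec v) = Q v := by
  constructor
  · intro h v
    exact h v v
  · intro h u v
    exact h u

/-- (R3, fixed vector, group form). -/
theorem exists_fixed_of_mem [Finite F]
    (hsm : ∀ (c : F) (v : ι → F), Q (c • v) = c ^ 2 * Q v) (hch : (2 : F) = 0)
    (x : GL ι F) (hx : x ∈ Cfsg.isometryGroup F Q)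
    (h : ∃ W : Submodule F (ι → F), (Module.finrank F ↥W = 1 ∧ ∃ v ∈ W, Q v ≠ 0) ∧
      W.map (Matrix.toLin' (x : Matrix ι ι F)) ≤ W) :
    ∃ v : ι → F, Q v = 1 ∧ (x : Matrix ι ι F).mulVec v = v :=
  exists_fixed_norm_one Q hsm hch _ ((mem_iso_iff Q x).mp hx) h

/-- An isometry without fixed vector of norm one is not a scalar matrix (characteristic two),
provided some vector has norm one. -/
theorem not_scalar_of_no_fix
    (hsm : ∀ (c : F) (v : ι → F), Q (c • v) = c ^ 2 * Q v) (hch : (2 : F) = 0)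
    (x : Matrix ι ι F) (hx : ∀ v : ι → F, Q (x.mulVec v) = Q v)
    (hex : ∃ v : ι → F, Q v = 1)
    (hnf : ∀ v : ι → F, Q v = 1 → x.mulVec v ≠ v) :
    ∀ z : F, x ≠ z • (1 : Matrix ι ι F) := by
  intro z hz
  obtain ⟨v, hv⟩ := hex
  have h1 : x.mulVec v = z • v := by rw [hz, Matrix.smul_mulVec, Matrix.one_mulVec]
  have h2 := hx v
  rw [h1, hsm, hv, mul_one] at h2
  have h3 := eq_one_of_sq hch z h2
  rw [h3, one_smul] at h1
  exact hnf v hv h1

/-- The standard minus form satisfies `Q (c • v) = c ^ 2 * Q v`. -/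
theorem minus_smul (m : ℕ) (a b : F) (c : F) (v : (Fin m ⊕ Fin m) ⊕ Fin 2 → F) :
    Cfsg.quadFormMinus m F a b (c • v) = c ^ 2 * Cfsg.quadFormMinus m F a b v := by
  unfold Cfsg.quadFormMinus
  simp only [Pi.smul_apply, smul_eq_mul]
  rw [mul_add, Finset.mul_sum]
  congr 1
  · apply Finset.sum_congr rfl
    intro i _
    ring
  · ring

/-- The standard minus form has a vector of norm one. -/
theorem minus_exists_one (m : ℕ) (a b : F) :
    ∃ v : (Fin m ⊕ Fin m) ⊕ Fin 2 → F, Cfsg.quadFormMinus m F a b v = 1 := by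
  refine ⟨Sum.elim 0 (fun j => if j = 0 then 1 else 0), ?_⟩
  unfold Cfsg.quadFormMinus
  simp

end Cfsg.Agent.Helper20.NS5c
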