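import Mathlib
import Cfsg.Agent.Helper20.Basic

set_option autoImplicit false

namespace Cfsg.Agent.Helper20

/-- In a finite commutative group the number of solutions of `x ^ p = 1` divides
`p ^ rank`. -/
theorem card_pow_eq_one_dvd (A : Type*) [Group A] [Finite A] (hA : ∀ a b : A, a * b = b * a)
    (p : ℕ) : Nat.card {x : A // x ^ p = 1} ∣ p ^ Group.rank A := by
  letI : CommGroup A := { (inferInstance : Group A) with mul_comm := hA }
  have e : Nat.card {x : A // x ^ p = 1} = Nat.card (powMonoidHom p : A →* A).ker := by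
    apply Nat.card_congr
    exact Equiv.subtypeEquivRight (fun x => by
      rw [MonoidHom.mem_ker, powMonoidHom_apply])
  have h1 : Nat.card (powMonoidHom p : A →* A).ker = (powMonoidHom p : A →* A).range.index :=
    Subgroup.index_range.symm
  rw [e, h1, Subgroup.index_eq_card]
  have h2 : ∀ g : A ⧸ (powMonoidHom p : A →* A).range, g ^ p = 1 := by
    intro g
    obtain ⟨x, rfl⟩ := QuotientGroup.mk_surjective g
    rw [← QuotientGroup.mk_pow, QuotientGroup.eq_one_iff]
    exact ⟨x, rfl⟩
  have h3 := card_dvd_exponent_pow_rank' (A ⧸ (powMonoidHom p : A →* A).range) h2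
  exact h3.trans (pow_dvd_pow p (Group.rank_le_of_surjective (QuotientGroup.mk' _)
    (QuotientGroup.mk'_surjective _)))

/-- `Ω₁` of a commutative subgroup. -/
def omega1 {G : Type*} [Group G] (P : Subgroup G)
    (comm : ∀ a ∈ P, ∀ b ∈ P, a * b = b * a) (p : ℕ) : Subgroup G where
  carrier := {x | x ∈ P ∧ x ^ p = 1}
  mul_mem' := fun {a b} ha hb => ⟨Subgroup.mul_mem _ ha.1 hb.1, by
    rw [(show Commute a b from comm a ha.1 b hb.1).mul_pow, ha.2, hb.2, one_mul]⟩
  one_mem' := ⟨Subgroup.one_mem _, one_pow p⟩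
  inv_mem' := fun {a} ha => ⟨Subgroup.inv_mem _ ha.1, by rw [inv_pow, ha.2, inv_one]⟩

theorem mem_omega1 {G : Type*} [Group G] (P : Subgroup G)
    (comm : ∀ a ∈ P, ∀ b ∈ P, a * b = b * a) (p : ℕ) (x : G) :
    x ∈ omega1 P comm p ↔ x ∈ P ∧ x ^ p = 1 := Iff.rfl

theorem card_omega1_dvd {G : Type*} [Group G] [Finite G] (P : Subgroup G)
    (comm : ∀ a ∈ P, ∀ b ∈ P, a * b = b * a) (p : ℕ) :
    Nat.card (omega1 P comm p) ∣ p ^ Group.rank P := by
  have e : Nat.card (omega1 P comm p) = Nat.card {x : P // x ^ p = 1} := by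
    apply Nat.card_congr
    exact
      { toFun := fun v => ⟨⟨v.1, v.2.1⟩, Subtype.ext v.2.2⟩
        invFun := fun x => ⟨x.1.1, ⟨x.1.2, by
          have h := congrArg Subtype.val x.2
          rw [Subgroup.coe_pow] at h
          exact h⟩⟩
        left_inv := fun v => rfl
        right_inv := fun x => rfl }
  rw [e]
  exact card_pow_eq_one_dvd P (fun a b => Subtype.ext (comm a a.2 b b.2)) p

/-- A `p'`-element normalizing the abelian `p`-group `P` and centralizing `Ω₁(P)`
centralizes `P`. -/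
theorem conj_eq_of_conj_omega1_eq {G : Type*} [Group G] (p : ℕ) [Fact p.Prime]
    (P : Subgroup G) (hP : IsPGroup p P) (comm : ∀ a ∈ P, ∀ b ∈ P, a * b = b * a) (t : G)
    (htN : t ∈ Subgroup.normalizer (P : Set G)) (hcop : (orderOf t).Coprime p)
    (hV : ∀ v ∈ P, v ^ p = 1 → t * v * t⁻¹ = v) : ∀ x ∈ P, t * x * t⁻¹ = x := by
  have key : ∀ k : ℕ, ∀ x ∈ P, x ^ (p ^ k) = 1 → t * x * t⁻¹ = x := by
    intro k
    induction k with
    | zero =>
      intro x _ hx
      rw [pow_zero, pow_one] at hx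
      rw [hx]; group
    | succ k ih =>
      intro x hxP hx
      have hyP : t * x * t⁻¹ ∈ P := (Subgroup.mem_normalizer_iff.mp htN x).mp hxP
      have hxp : t * x ^ p * t⁻¹ = x ^ p :=
        ih (x ^ p) (Subgroup.pow_mem _ hxP p) (by rw [← pow_mul, ← pow_succ']; exact hx)
      have hzP : t * x * t⁻¹ * x⁻¹ ∈ P := Subgroup.mul_mem _ hyP (Subgroup.inv_mem _ hxP)
      have hzp : (t * x * t⁻¹ * x⁻¹) ^ p = 1 := by
        have hc : Commute (t * x * t⁻¹) x⁻¹ := comm _ hyP _ (Subgroup.inv_mem _ hxP)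
        rw [hc.mul_pow, conj_pow, hxp, inv_pow, mul_inv_cancel]
      have htz : t * (t * x * t⁻¹ * x⁻¹) * t⁻¹ = t * x * t⁻¹ * x⁻¹ := hV _ hzP hzp
      have hiter : ∀ i : ℕ, t ^ i * x * (t ^ i)⁻¹ = (t * x * t⁻¹ * x⁻¹) ^ i * x := by
        intro i
        induction i with
        | zero => simp
        | succ i ihi =>
          have e1 : t ^ (i + 1) * x * (t ^ (i + 1))⁻¹ = t * (t ^ i * x * (t ^ i)⁻¹) * t⁻¹ := by
            rw [pow_succ']; group
          have e2 : t * ((t * x * t⁻¹ * x⁻¹) ^ i * x) * t⁻¹ =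
              (t * (t * x * t⁻¹ * x⁻¹) * t⁻¹) ^ i * (t * x * t⁻¹) := by
            rw [conj_pow]; simp only [mul_assoc, inv_mul_cancel_left]
          have e3 : t * x * t⁻¹ = t * x * t⁻¹ * x⁻¹ * x := by group
          rw [e1, ihi, e2, htz, pow_succ,
            mul_assoc ((t * x * t⁻¹ * x⁻¹) ^ i) (t * x * t⁻¹ * x⁻¹) x, ← e3]
      have h1 := hiter (orderOf t)
      rw [pow_orderOf_eq_one, one_mul, inv_one, mul_one] at h1
      have hzn : (t * x * t⁻¹ * x⁻¹) ^ orderOf t = 1 := by
        have h2 : 1 * x = (t * x * t⁻¹ * x⁻¹) ^ orderOf t * x := by rw [one_mul]; exact h1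
        exact (mul_right_cancel h2).symm
      have hz1 : t * x * t⁻¹ * x⁻¹ = 1 := by
        have hd : orderOf (t * x * t⁻¹ * x⁻¹) ∣ Nat.gcd (orderOf t) p :=
          Nat.dvd_gcd (orderOf_dvd_of_pow_eq_one hzn) (orderOf_dvd_of_pow_eq_one hzp)
        rw [hcop.gcd_eq_one, Nat.dvd_one, orderOf_eq_one_iff] at hd
        exact hd
      exact mul_inv_eq_one.mp hz1
  intro x hxP
  obtain ⟨k, hk⟩ := hP ⟨x, hxP⟩
  apply key k x hxP
  have h := congrArg Subtype.val hk
  rw [Subgroup.coe_pow] at h
  exact h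

/-- **Key lemma on abelian Sylow subgroups.** If `P` is an abelian Sylow `p`-subgroup of `G`
which is not central in its normalizer, then some prime `q ≠ p` dividing `|G|` divides
`p ^ j - 1` for some `1 ≤ j ≤ rank P` with `p ^ j ∣ |P|`. -/
theorem exists_prime_of_not_le_centralizer {G : Type*} [Group G] [Finite G] (p : ℕ)
    [Fact p.Prime] (P : Sylow p G) (hab : IsMulCommutative (P : Subgroup G))
    (hNC : ¬ Subgroup.normalizer ((P : Subgroup G) : Set G) ≤
      Subgroup.centralizer ((P : Subgroup G) : Set G)) :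
    ∃ q j : ℕ, q.Prime ∧ q ≠ p ∧ q ∣ Nat.card G ∧ 1 ≤ j ∧ j ≤ Group.rank (P : Subgroup G) ∧
      p ^ j ∣ Nat.card (P : Subgroup G) ∧ q ∣ p ^ j - 1 := by
  classical
  have hp : p.Prime := Fact.out
  have comm : ∀ a ∈ (P : Subgroup G), ∀ b ∈ (P : Subgroup G), a * b = b * a := by
    intro a ha b hb
    haveI := hab
    have h1 := mul_comm' (⟨a, ha⟩ : (P : Subgroup G)) ⟨b, hb⟩
    exact congrArg Subtype.val h1
  by_contra hno
  apply hNC
  have hVP : omega1 (P : Subgroup G) comm p ≤ (P : Subgroup G) := fun x hx => hx.1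
  obtain ⟨d', hd'le, hVcard⟩ := (Nat.dvd_prime_pow hp).mp (card_omega1_dvd (P : Subgroup G) comm p)
  have hVconj : ∀ t ∈ Subgroup.normalizer ((P : Subgroup G) : Set G),
      ∀ v ∈ omega1 (P : Subgroup G) comm p, t * v * t⁻¹ ∈ omega1 (P : Subgroup G) comm p := by
    intro t ht v hv
    refine ⟨(Subgroup.mem_normalizer_iff.mp ht v).mp hv.1, ?_⟩
    rw [conj_pow, hv.2]; group
  have hVp : IsPGroup p (omega1 (P : Subgroup G) comm p) := P.isPGroup'.to_le hVP
  have hB : ∀ n : ℕ, ∀ t : G, t ∈ Subgroup.normalizer ((P : Subgroup G) : Set G) →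
      orderOf t = n → n.Coprime p →
      ∀ v ∈ (P : Subgroup G), v ^ p = 1 → t * v * t⁻¹ = v := by
    intro n
    induction n using Nat.strong_induction_on with
    | _ n IH =>
    intro t htN hn hcop
    by_cases hn1 : n = 1
    · rw [hn1, orderOf_eq_one_iff] at hn
      intro v _ _
      rw [hn]; group
    obtain ⟨q, hq, hqn⟩ := Nat.exists_prime_and_dvd hn1
    have hqp : q ≠ p := by
      rintro rfl
      exact (Nat.Prime.coprime_iff_not_dvd hq).mp hcop.symm hqn
    have hnpos : 0 < n := by rw [← hn]; exact orderOf_pos t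
    have hordq : orderOf (t ^ q) = n / q := by
      rw [orderOf_pow' t hq.ne_zero, hn, Nat.gcd_eq_right hqn]
    have hlt : n / q < n := Nat.div_lt_self hnpos hq.one_lt
    have hcop' : (n / q).Coprime p :=
      Nat.Coprime.coprime_dvd_left (Nat.div_dvd_of_dvd hqn) hcop
    have htqN : t ^ q ∈ Subgroup.normalizer ((P : Subgroup G) : Set G) :=
      Subgroup.pow_mem _ htN q
    have hIH := IH (n / q) hlt (t ^ q) htqN hordq hcop'
    by_contra hne
    haveI : Fact q.Prime := ⟨hq⟩
    haveI : Fintype ↥(omega1 (P : Subgroup G) comm p) := Fintype.ofFinite _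
    let σ : Equiv.Perm ↥(omega1 (P : Subgroup G) comm p) :=
      { toFun := fun v => ⟨t * v * t⁻¹, hVconj t htN v v.2⟩
        invFun := fun v => ⟨t⁻¹ * v * t, by
          have h1 := hVconj t⁻¹ (Subgroup.inv_mem _ htN) v v.2
          rwa [inv_inv] at h1⟩
        left_inv := fun v => Subtype.ext (by
          show t⁻¹ * (t * (v : G) * t⁻¹) * t = v
          group)
        right_inv := fun v => Subtype.ext (by
          show t * (t⁻¹ * (v : G) * t) * t⁻¹ = v
          group) }
    have hσpow : ∀ (i : ℕ) (v : ↥(omega1 (P : Subgroup G) comm p)),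
        (((σ ^ i) v : ↥(omega1 (P : Subgroup G) comm p)) : G) = t ^ i * v * (t ^ i)⁻¹ := by
      intro i
      induction i with
      | zero => intro v; simp
      | succ i ih =>
        intro v
        rw [pow_succ', Equiv.Perm.mul_apply]
        show t * (((σ ^ i) v : ↥(omega1 (P : Subgroup G) comm p)) : G) * t⁻¹ = _
        rw [ih v, pow_succ']
        group
    have hσq : σ ^ q ^ 1 = 1 := by
      rw [pow_one]
      apply Equiv.ext
      intro v
      apply Subtype.ext
      rw [hσpow q v]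
      exact hIH v v.2.1 v.2.2
    have hmod := Equiv.Perm.card_compl_support_modEq hσq
    have hfixcard : σ.supportᶜ.card = Nat.card ((Subgroup.centralizer ({t} : Set G)).subgroupOf
        (omega1 (P : Subgroup G) comm p)) := by
      rw [← Fintype.card_coe, ← Nat.card_eq_fintype_card]
      apply Nat.card_congr
      refine Equiv.subtypeEquivRight (fun v => ?_)
      rw [Finset.mem_compl, Equiv.Perm.mem_support, not_not, Subgroup.mem_subgroupOf,
        Subgroup.mem_centralizer_iff]
      constructor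
      · intro h x hx
        rw [Set.mem_singleton_iff] at hx
        rw [hx]
        have h1 : t * (v : G) * t⁻¹ = v := congrArg Subtype.val h
        calc t * (v : G) = t * v * t⁻¹ * t := by group
          _ = v * t := by rw [h1]
      · intro h
        apply Subtype.ext
        show t * (v : G) * t⁻¹ = v
        rw [h t (Set.mem_singleton t)]; group
    rw [hfixcard, ← Nat.card_eq_fintype_card, hVcard] at hmod
    obtain ⟨c, hc⟩ := (hVp.to_subgroup ((Subgroup.centralizer ({t} : Set G)).subgroupOf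
        (omega1 (P : Subgroup G) comm p))).exists_card_eq
    have hcle : c ≤ d' := by
      have h1 := Subgroup.card_subgroup_dvd_card ((Subgroup.centralizer ({t} : Set G)).subgroupOf
        (omega1 (P : Subgroup G) comm p))
      rw [hc, hVcard] at h1
      exact (Nat.pow_dvd_pow_iff_le_right hp.one_lt).mp h1
    have hcne : c ≠ d' := by
      intro hcd
      apply hne
      have htop : (Subgroup.centralizer ({t} : Set G)).subgroupOf
          (omega1 (P : Subgroup G) comm p) = ⊤ := by
        rw [← Subgroup.card_eq_iff_eq_top, hc, hVcard, hcd]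
      intro v hv hvp
      have hmem : (⟨v, ⟨hv, hvp⟩⟩ : ↥(omega1 (P : Subgroup G) comm p)) ∈
          (Subgroup.centralizer ({t} : Set G)).subgroupOf (omega1 (P : Subgroup G) comm p) := by
        rw [htop]; exact Subgroup.mem_top _
      rw [Subgroup.mem_subgroupOf, Subgroup.mem_centralizer_iff] at hmem
      have h2 : t * v = v * t := hmem t (Set.mem_singleton t)
      rw [h2]; group
    rw [hc] at hmod
    have hdvd := (Nat.modEq_iff_dvd' (Nat.pow_le_pow_right hp.pos hcle)).mp hmod
    have e : p ^ d' - p ^ c = p ^ c * (p ^ (d' - c) - 1) := by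
      rw [Nat.mul_sub, mul_one, ← pow_add, Nat.add_sub_cancel' hcle]
    rw [e] at hdvd
    have hqd : q ∣ p ^ (d' - c) - 1 := by
      rcases (Nat.Prime.dvd_mul hq).mp hdvd with h1 | h1
      · exact absurd ((Nat.prime_dvd_prime_iff_eq hq hp).mp (hq.dvd_of_dvd_pow h1)) hqp
      · exact h1
    apply hno
    refine ⟨q, d' - c, hq, hqp, hqn.trans (hn ▸ orderOf_dvd_natCard t), by omega, by omega, ?_,
      hqd⟩
    exact (pow_dvd_pow p (Nat.sub_le d' c)).trans (hVcard ▸ Subgroup.card_dvd_of_le hVP)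
  -- conclusion
  intro g hg
  obtain ⟨A, r, hr, hAr, hpow⟩ := exists_card_eq_pow_mul G p hp
  have hcen : ∀ t : G, (∀ x ∈ (P : Subgroup G), t * x * t⁻¹ = x) →
      t ∈ Subgroup.centralizer ((P : Subgroup G) : Set G) := by
    intro t ht
    rw [Subgroup.mem_centralizer_iff]
    intro x hx
    have h1 := ht x hx
    calc x * t = t * x * t⁻¹ * t := by rw [h1]
      _ = t * x := by group
  have h1 : g ^ r ∈ Subgroup.centralizer ((P : Subgroup G) : Set G) := by
    have hgr : g ^ r ∈ (P : Subgroup G) :=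
      mem_sylow_of_mem_normalizer p P (g ^ r) A (hpow g) (Subgroup.pow_mem _ hg r)
    apply hcen
    intro x hx
    rw [comm _ hgr x hx]; group
  have h2 : g ^ (p ^ A) ∈ Subgroup.centralizer ((P : Subgroup G) : Set G) := by
    apply hcen
    have hord : orderOf (g ^ (p ^ A)) ∣ r := by
      apply orderOf_dvd_of_pow_eq_one
      rw [← pow_mul, ← hAr]; exact pow_card_eq_one'
    have hcop : (orderOf (g ^ (p ^ A))).Coprime p :=
      Nat.Coprime.coprime_dvd_left hord ((Nat.Prime.coprime_iff_not_dvd hp).mpr hr).symm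
    have htN : g ^ (p ^ A) ∈ Subgroup.normalizer ((P : Subgroup G) : Set G) :=
      Subgroup.pow_mem _ hg _
    exact conj_eq_of_conj_omega1_eq p (P : Subgroup G) P.isPGroup' comm _ htN hcop
      (hB _ _ htN rfl hcop)
  exact mem_of_pow_mem_of_pow_mem_of_coprime _ g (p ^ A) r h2 h1
    (Nat.Coprime.pow_left _ ((Nat.Prime.coprime_iff_not_dvd hp).mpr hr))

end Cfsg.Agent.Helper20
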