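import Mathlib

/-!
# Cross-characteristic degree bounds: simultaneous eigenspaces of an elementary abelian subgroup

A representation `ρ : G →* GL_d(K)` is restricted to an elementary abelian `p`-subgroup
`a : F^m → G` (`F` a finite field of characteristic `p`, `p` invertible in `K`).  Over the
algebraic closure the restriction is a direct sum of simultaneous eigenspaces, the weights are
`y ↦ ψ₀ (φ ⬝ᵥ y)` for covectors `φ`, and the weights that occur are permuted by the normaliser.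
-/

set_option autoImplicit false

namespace Cfsg.Agent.Helper20.CrossChar

open Matrix Module

section generic

variable {F : Type*} [Field F] [Fintype F] {L : Type*} [Field L] [IsAlgClosed L]
  {V : Type*} [AddCommGroup V] [Module L V] [FiniteDimensional L V] {m : ℕ}

/-- The simultaneous eigenspace of the family `f` for the weight `χ`. -/
def E (f : (Fin m → F) → Module.End L V) (χ : (Fin m → F) → L) : Submodule L V :=
  ⨅ y, (f y).maxGenEigenspace (χ y)

variable (f : (Fin m → F) → Module.End L V) (hadd : ∀ x y, f (x + y) = f x * f y)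
  (h0 : f 0 = 1)

include hadd in
theorem f_comm (x y : Fin m → F) : Commute (f x) (f y) := by
  show f x * f y = f y * f x
  rw [← hadd, ← hadd, add_comm]

include hadd h0 in
theorem f_nsmul (k : ℕ) (y : Fin m → F) : f (k • y) = f y ^ k := by
  induction k with
  | zero => rw [zero_smul, h0, pow_zero]
  | succ k ih => rw [succ_nsmul, hadd, ih, pow_succ]

include hadd h0 in
theorem semis (p : ℕ) [CharP F p] (hp : (p : L) ≠ 0) (y : Fin m → F) : (f y).IsSemisimple := by
  have hpy : p • y = 0 := by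
    rw [← Nat.cast_smul_eq_nsmul F p y, CharP.cast_eq_zero F p, zero_smul]
  have hpow : f y ^ p = 1 := by rw [← f_nsmul f hadd h0, hpy, h0]
  apply Module.End.isSemisimple_of_squarefree_aeval_eq_zero
    (p := Polynomial.X ^ p - Polynomial.C (1 : L))
  · exact (Polynomial.separable_X_pow_sub_C (1 : L) hp one_ne_zero).squarefree
  · rw [map_sub, map_pow, Polynomial.aeval_X, Polynomial.aeval_C, hpow, map_one, sub_self]

theorem mem_E (hs : ∀ y, (f y).IsSemisimple) (χ : (Fin m → F) → L) (w : V) :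
    w ∈ E f χ ↔ ∀ y, f y w = χ y • w := by
  unfold E
  simp only [Submodule.mem_iInf]
  refine forall_congr' fun y => ?_
  rw [(Module.End.isFinitelySemisimple_iff_isSemisimple.mpr (hs y)).maxGenEigenspace_eq_eigenspace,
    Module.End.mem_eigenspace_iff]

include hadd in
theorem indep : iSupIndep (E f) :=
  Module.End.independent_iInf_maxGenEigenspace_of_forall_mapsTo f
    (fun i j φ => Module.End.mapsTo_maxGenEigenspace_of_comm (f_comm f hadd j i) φ)

include hadd in
theorem top : ⨆ χ, E f χ = ⊤ :=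
  Module.End.iSup_iInf_maxGenEigenspace_eq_top_of_forall_mapsTo f
    (fun i j φ => Module.End.mapsTo_maxGenEigenspace_of_comm (f_comm f hadd j i) φ)
    (fun i => Module.End.iSup_maxGenEigenspace_eq_top (f i))

include hadd in
theorem card_le (s : Finset ((Fin m → F) → L)) (hs : ∀ χ ∈ s, E f χ ≠ ⊥) :
    s.card ≤ finrank L V := by
  classical
  letI := (indep f hadd).fintypeNeBotOfFiniteDimensional
  have h1 := (indep f hadd).subtype_ne_bot_le_finrank
  have h2 : Fintype.card s ≤ Fintype.card {χ // E f χ ≠ ⊥} :=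
    Fintype.card_le_of_injective (fun t => ⟨t.1, hs t.1 t.2⟩)
      (fun a b h => Subtype.ext (by
        have h' : (a : (Fin m → F) → L) = (b : (Fin m → F) → L) := by
          injection h
        exact h'))
  rw [Fintype.card_coe] at h2
  exact h2.trans h1

include hadd in
theorem exists_nontrivial (hs : ∀ y, (f y).IsSemisimple) (y₀ : Fin m → F) (h : f y₀ ≠ 1) :
    ∃ χ, E f χ ≠ ⊥ ∧ χ y₀ ≠ 1 := by
  by_contra hcon
  push Not at hcon
  apply h
  ext1 w
  have hw : w ∈ ⨆ χ, E f χ := by rw [top f hadd]; trivial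
  refine Submodule.iSup_induction (p := E f) (motive := fun w => f y₀ w = (1 : Module.End L V) w)
    hw ?_ ?_ ?_
  · intro χ x hx
    by_cases hb : E f χ = ⊥
    · rw [hb] at hx
      rw [(Submodule.mem_bot L).1 hx, map_zero, map_zero]
    · rw [(mem_E f hs χ x).1 hx y₀, hcon χ hb, one_smul, Module.End.one_apply]
  · rw [map_zero, map_zero]
  · intro x y hx hy
    rw [map_add, hx, hy, map_add]

include hadd h0 in
theorem char_mul (hs : ∀ y, (f y).IsSemisimple) (χ : (Fin m → F) → L) (hχ : E f χ ≠ ⊥) :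
    (∀ x y, χ (x + y) = χ x * χ y) ∧ χ 0 = 1 := by
  obtain ⟨w, hw, hw0⟩ := (Submodule.ne_bot_iff _).1 hχ
  have hm := (mem_E f hs χ w).1 hw
  constructor
  · intro x y
    have h1 := hm (x + y)
    rw [hadd, Module.End.mul_apply, hm y, map_smul, hm x, smul_smul] at h1
    exact (smul_left_injective L hw0 h1).symm.trans (mul_comm _ _)
  · have h1 := hm 0
    rw [h0, Module.End.one_apply] at h1
    have h2 : (1 : L) • w = χ 0 • w := by rw [one_smul]; exact h1
    exact (smul_left_injective L hw0 h2).symm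

theorem move (hs : ∀ y, (f y).IsSemisimple) (g ginv : Module.End L V) (hg : ginv * g = 1)
    (T : (Fin m → F) → (Fin m → F)) (hT : ∀ y, f y * g = g * f (T y))
    (χ : (Fin m → F) → L) (hχ : E f χ ≠ ⊥) : E f (χ ∘ T) ≠ ⊥ := by
  obtain ⟨w, hw, hw0⟩ := (Submodule.ne_bot_iff _).1 hχ
  have hm := (mem_E f hs χ w).1 hw
  refine (Submodule.ne_bot_iff _).2 ⟨g w, (mem_E f hs _ _).2 ?_, ?_⟩
  · intro y
    have e : f y (g w) = (f y * g) w := rfl
    rw [e, hT y, Module.End.mul_apply, hm (T y), map_smul]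
    rfl
  · intro h0'
    apply hw0
    have e : w = (ginv * g) w := by rw [hg]; rfl
    rw [e, Module.End.mul_apply, h0', map_zero]

end generic

section characters

variable {F : Type*} [Field F] [Fintype F] {L : Type*} [Field L] {m : ℕ}

theorem psi_ne_zero (ψ₀ : F → L) (hψ : ∀ s t, ψ₀ (s + t) = ψ₀ s * ψ₀ t) (hψ0 : ψ₀ 0 = 1)
    (t : F) : ψ₀ t ≠ 0 := by
  intro h
  have h1 := hψ t (-t)
  rw [add_neg_cancel, hψ0, h, zero_mul] at h1
  exact one_ne_zero h1

theorem X_inj (ψ₀ : F → L) (hψ : ∀ s t, ψ₀ (s + t) = ψ₀ s * ψ₀ t) (hψ0 : ψ₀ 0 = 1)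
    (hψ1 : ψ₀ 1 ≠ 1) (φ φ' : Fin m → F) (h : ∀ y, ψ₀ (φ ⬝ᵥ y) = ψ₀ (φ' ⬝ᵥ y)) : φ = φ' := by
  classical
  by_contra hne
  obtain ⟨i, hi⟩ : ∃ i, φ i ≠ φ' i := Function.ne_iff.1 hne
  have hd : φ i - φ' i ≠ 0 := sub_ne_zero.2 hi
  have h1 := h (Pi.single i (φ i - φ' i)⁻¹)
  rw [dotProduct_single, dotProduct_single] at h1
  have e : φ i * (φ i - φ' i)⁻¹ = φ' i * (φ i - φ' i)⁻¹ + 1 := by
    field_simp
    ring
  rw [e, hψ] at h1
  apply hψ1
  have hnz := psi_ne_zero ψ₀ hψ hψ0 (φ' i * (φ i - φ' i)⁻¹)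
  exact mul_left_cancel₀ hnz (by rw [h1, mul_one])

theorem classify (ψ₀ : F → L) (hψ : ∀ s t, ψ₀ (s + t) = ψ₀ s * ψ₀ t) (hψ0 : ψ₀ 0 = 1)
    (hψ1 : ψ₀ 1 ≠ 1) (χ : (Fin m → F) → L) (hχ : ∀ x y, χ (x + y) = χ x * χ y)
    (hχ0 : χ 0 = 1) : ∃ φ : Fin m → F, ∀ y, χ y = ψ₀ (φ ⬝ᵥ y) := by
  classical
  let G := Multiplicative (Fin m → F)
  let toHom : (χ : (Fin m → F) → L) → (∀ x y, χ (x + y) = χ x * χ y) → χ 0 = 1 → (G →* L) :=
    fun χ h h0 =>
      { toFun := fun g => χ (Multiplicative.toAdd g)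
        map_one' := h0
        map_mul' := fun a b => h _ _ }
  let X : (Fin m → F) → (G →* L) := fun φ =>
    toHom (fun y => ψ₀ (φ ⬝ᵥ y)) (fun x y => by simp only [dotProduct_add]; exact hψ _ _)
      (by simp only [dotProduct_zero]; exact hψ0)
  have hXinj : Function.Injective X := by
    intro φ φ' h
    apply X_inj ψ₀ hψ hψ0 hψ1
    intro y
    exact DFunLike.congr_fun h (Multiplicative.ofAdd y)
  have hli := linearIndependent_monoidHom G L
  haveI : Finite (G →* L) := hli.finite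
  have hcard : Nat.card (G →* L) ≤ Nat.card (Fin m → F) := by
    haveI := Fintype.ofFinite (G →* L)
    have h1 := hli.fintype_card_le_finrank
    rw [Module.finrank_fintype_fun_eq_card] at h1
    rw [Nat.card_eq_fintype_card, Nat.card_eq_fintype_card]
    exact h1.trans (Fintype.card_multiplicative (Fin m → F)).le
  obtain ⟨φ, hφ⟩ := (hXinj.bijective_of_nat_card_le hcard).2 (toHom χ hχ hχ0)
  exact ⟨φ, fun y => (DFunLike.congr_fun hφ (Multiplicative.ofAdd y)).symm⟩

end characters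

section lift

variable {K : Type*} [Field K] {d : ℕ} {G : Type*} [Group G]

/-- Base change of `ρ` to the algebraic closure, as endomorphisms. -/
noncomputable def lift (ρ : G →* GL (Fin d) K) :
    G →* Module.End (AlgebraicClosure K) (Fin d → AlgebraicClosure K) where
  toFun g := Matrix.toLin' ((algebraMap K (AlgebraicClosure K)).mapMatrix
    ((ρ g : GL (Fin d) K) : Matrix (Fin d) (Fin d) K))
  map_one' := by
    rw [map_one, Units.val_one, map_one, Matrix.toLin'_one]
    rfl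
  map_mul' a b := by
    rw [map_mul, Units.val_mul, map_mul, Matrix.toLin'_mul]
    rfl

theorem lift_eq_one (ρ : G →* GL (Fin d) K) (g : G) (h : lift ρ g = 1) : ρ g = 1 := by
  have h1 : Matrix.toLin' ((algebraMap K (AlgebraicClosure K)).mapMatrix
      ((ρ g : GL (Fin d) K) : Matrix (Fin d) (Fin d) K))
      = Matrix.toLin' (1 : Matrix (Fin d) (Fin d) (AlgebraicClosure K)) := by
    rw [Matrix.toLin'_one]
    exact h
  have h2 := Matrix.toLin'.injective h1
  have h3 : ((ρ g : GL (Fin d) K) : Matrix (Fin d) (Fin d) K).map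
      (algebraMap K (AlgebraicClosure K))
      = (1 : Matrix (Fin d) (Fin d) K).map (algebraMap K (AlgebraicClosure K)) := by
    have e1 : (1 : Matrix (Fin d) (Fin d) K).map (algebraMap K (AlgebraicClosure K))
        = (algebraMap K (AlgebraicClosure K)).mapMatrix 1 := rfl
    rw [e1, map_one, ← h2]
    rfl
  have h4 := Matrix.map_injective (algebraMap K (AlgebraicClosure K)).injective h3
  exact Units.ext h4

end lift

/-- The main counting statement. -/
theorem main_count {F : Type*} [Field F] [Fintype F] {K : Type*} [Field K] {d m : ℕ}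
    {G : Type*} [Group G] (ρ : G →* GL (Fin d) K) (p : ℕ) [CharP F p] (hpK : (p : K) ≠ 0)
    (a : (Fin m → F) → G) (ha : ∀ x y, a (x + y) = a x * a y) (y₀ : Fin m → F)
    (hy₀ : ρ (a y₀) ≠ 1) :
    ∃ Ok : (Fin m → F) → Prop,
      (∃ φ, Ok φ ∧ φ ⬝ᵥ y₀ ≠ 0) ∧
      (∀ (g : G) (M : Matrix (Fin m) (Fin m) F), (∀ y, a y * g = g * a (M *ᵥ y)) →
        ∀ φ, Ok φ → Ok (φ ᵥ* M)) ∧
      (∀ s : Finset (Fin m → F), (∀ φ ∈ s, Ok φ) → s.card ≤ d) := by
  classical
  have hpL : (p : AlgebraicClosure K) ≠ 0 := by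
    intro h
    apply hpK
    have h1 : algebraMap K (AlgebraicClosure K) (p : K) = 0 := by rw [map_natCast]; exact h
    exact (map_eq_zero (algebraMap K (AlgebraicClosure K))).1 h1
  let f : (Fin m → F) → Module.End (AlgebraicClosure K) (Fin d → AlgebraicClosure K) :=
    fun y => lift ρ (a y)
  have hadd : ∀ x y, f (x + y) = f x * f y := fun x y => by
    show lift ρ (a (x + y)) = lift ρ (a x) * lift ρ (a y)
    rw [ha, map_mul]
  have ha0 : a 0 = 1 := by
    have h1 := ha 0 0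
    rw [add_zero] at h1
    exact (mul_eq_left.1 h1.symm)
  have h0 : f 0 = 1 := by
    show lift ρ (a 0) = 1
    rw [ha0, map_one]
  have hs := semis f hadd h0 p hpL
  have hf0 : f y₀ ≠ 1 := fun h => hy₀ (lift_eq_one ρ _ h)
  obtain ⟨χ₁, hχ₁, hχ₁y⟩ := exists_nontrivial f hadd hs y₀ hf0
  obtain ⟨hχm, hχ0⟩ := char_mul f hadd h0 hs χ₁ hχ₁
  let ψ₀ : F → AlgebraicClosure K := fun t => χ₁ (t • y₀)
  have hψ : ∀ s t, ψ₀ (s + t) = ψ₀ s * ψ₀ t := fun s t => by
    show χ₁ ((s + t) • y₀) = χ₁ (s • y₀) * χ₁ (t • y₀)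
    rw [add_smul, hχm]
  have hψ0 : ψ₀ 0 = 1 := by
    show χ₁ ((0 : F) • y₀) = 1
    rw [zero_smul, hχ0]
  have hψ1 : ψ₀ 1 ≠ 1 := by
    show χ₁ ((1 : F) • y₀) ≠ 1
    rw [one_smul]
    exact hχ₁y
  refine ⟨fun φ => E f (fun y => ψ₀ (φ ⬝ᵥ y)) ≠ ⊥, ?_, ?_, ?_⟩
  · obtain ⟨φ₁, hφ₁⟩ := classify ψ₀ hψ hψ0 hψ1 χ₁ hχm hχ0
    refine ⟨φ₁, ?_, ?_⟩
    · have e : (fun y => ψ₀ (φ₁ ⬝ᵥ y)) = χ₁ := funext fun y => (hφ₁ y).symm
      show E f (fun y => ψ₀ (φ₁ ⬝ᵥ y)) ≠ ⊥
      rw [e]
      exact hχ₁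
    · intro h
      apply hχ₁y
      rw [hφ₁ y₀, h, hψ0]
  · intro g M hgM φ hφ
    have h1 := move f hs (lift ρ g) (lift ρ g⁻¹)
      (by rw [← map_mul, inv_mul_cancel, map_one]) (fun y => M *ᵥ y)
      (fun y => by
        show lift ρ (a y) * lift ρ g = lift ρ g * lift ρ (a (M *ᵥ y))
        rw [← map_mul, hgM y, map_mul]) _ hφ
    have e : ((fun y => ψ₀ (φ ⬝ᵥ y)) ∘ fun y => M *ᵥ y) = fun y => ψ₀ ((φ ᵥ* M) ⬝ᵥ y) := by
      funext y
      show ψ₀ (φ ⬝ᵥ M *ᵥ y) = ψ₀ ((φ ᵥ* M) ⬝ᵥ y)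
      rw [dotProduct_mulVec]
    rw [e] at h1
    exact h1
  · intro s hsOk
    have hinj : Function.Injective
        (fun φ : Fin m → F => (fun y => ψ₀ (φ ⬝ᵥ y) : (Fin m → F) → AlgebraicClosure K)) :=
      fun φ φ' h => X_inj ψ₀ hψ hψ0 hψ1 φ φ' (fun y => congrFun h y)
    have h1 := card_le f hadd (s.image _) (by
      intro χ hχ
      obtain ⟨φ, hφ, rfl⟩ := Finset.mem_image.1 hχ
      exact hsOk φ hφ)
    rw [Finset.card_image_of_injective _ hinj, Module.finrank_fin_fun] at h1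
    exact h1

end Cfsg.Agent.Helper20.CrossChar
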