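import Mathlib
import Cfsg.Agent.Helper20.CrossChar

/-!
# Cross-characteristic degree bound for `SL_n(F)`, `n ≥ 3`: `d ≥ q^(n-1) - 1`

The abelian subgroup is `{1 + v ⊗ e_L^*}` (`v` with last coordinate zero); the transvections fixing
the covector `e_L^*` permute its weights transitively.
-/

set_option autoImplicit false

namespace Cfsg.Agent.Helper20.CrossChar

open Matrix

variable {F : Type*} [Field F] {m : ℕ}

theorem det_tv {ι : Type*} [Fintype ι] [DecidableEq ι] (v φ : ι → F) (h : φ ⬝ᵥ v = 0) :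
    Matrix.det (1 + vecMulVec v φ) = 1 := by
  rw [vecMulVec_eq (Fin 1), det_one_add_replicateCol_mul_replicateRow, h, add_zero]

theorem vmv2 {ι : Type*} [Fintype ι] (a b c d : ι → F) :
    vecMulVec a b * vecMulVec c d = (b ⬝ᵥ c) • vecMulVec a d := by
  rw [vecMulVec_mul_vecMulVec, vecMulVec_smul]

/-- Kill the last coordinate. -/
def Pl (y : Fin (m + 1) → F) : Fin (m + 1) → F :=
  y - Pi.single (Fin.last m) (y (Fin.last m))

theorem Pl_last (y : Fin (m + 1) → F) : Pl y (Fin.last m) = 0 := by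
  unfold Pl
  rw [Pi.sub_apply, Pi.single_eq_same, sub_self]

theorem Pl_add (x y : Fin (m + 1) → F) : Pl (x + y) = Pl x + Pl y := by
  unfold Pl
  rw [Pi.add_apply, Pi.single_add]
  abel

theorem Pl_sub_smul (y x : Fin (m + 1) → F) (c : F) (hx : x (Fin.last m) = 0) :
    Pl (y - c • x) = Pl y - c • x := by
  unfold Pl
  rw [Pi.sub_apply, Pi.smul_apply, hx, smul_zero, sub_zero]
  abel

theorem eL_dot (v : Fin (m + 1) → F) :
    Pi.single (Fin.last m) (1 : F) ⬝ᵥ v = v (Fin.last m) := by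
  rw [single_dotProduct, one_mul]

theorem dot_Pl (ψ y : Fin (m + 1) → F) (hψ : ψ (Fin.last m) = 0) : ψ ⬝ᵥ Pl y = ψ ⬝ᵥ y := by
  unfold Pl
  rw [dotProduct_sub, dotProduct_single, hψ, zero_mul, sub_zero]

/-- The abelian subgroup. -/
def aSL (y : Fin (m + 1) → F) : Matrix.SpecialLinearGroup (Fin (m + 1)) F :=
  ⟨1 + vecMulVec (Pl y) (Pi.single (Fin.last m) 1), det_tv _ _ (by rw [eL_dot, Pl_last])⟩

theorem aSL_add (x y : Fin (m + 1) → F) : aSL (x + y) = aSL x * aSL y := by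
  apply Subtype.ext
  show (1 + vecMulVec (Pl (x + y)) (Pi.single (Fin.last m) (1 : F)))
    = (1 + vecMulVec (Pl x) (Pi.single (Fin.last m) (1 : F)))
      * (1 + vecMulVec (Pl y) (Pi.single (Fin.last m) (1 : F)))
  rw [Pl_add]
  simp only [mul_add, add_mul, mul_one, one_mul, vmv2, eL_dot, Pl_last, zero_smul, add_vecMulVec]
  abel

/-- A transvection as an element of `SL`. -/
def tvSL (x ψ : Fin (m + 1) → F) (h : ψ ⬝ᵥ x = 0) : Matrix.SpecialLinearGroup (Fin (m + 1)) F :=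
  ⟨1 + vecMulVec x ψ, det_tv x ψ h⟩

theorem aSL_move (x ψ : Fin (m + 1) → F) (hx : x (Fin.last m) = 0) (hψ : ψ (Fin.last m) = 0)
    (h : ψ ⬝ᵥ x = 0) (y : Fin (m + 1) → F) :
    aSL y * tvSL x ψ h = tvSL x ψ h * aSL ((1 - vecMulVec x ψ) *ᵥ y) := by
  apply Subtype.ext
  show (1 + vecMulVec (Pl y) (Pi.single (Fin.last m) (1 : F))) * (1 + vecMulVec x ψ)
    = (1 + vecMulVec x ψ)
      * (1 + vecMulVec (Pl ((1 - vecMulVec x ψ) *ᵥ y)) (Pi.single (Fin.last m) (1 : F)))
  have e1 : (1 - vecMulVec x ψ) *ᵥ y = y - (ψ ⬝ᵥ y) • x := by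
    rw [sub_mulVec, one_mulVec, vecMulVec_mulVec, op_smul_eq_smul]
  rw [e1, Pl_sub_smul _ _ _ hx]
  simp only [mul_add, add_mul, mul_sub, mul_one, one_mul, mul_smul_comm, vmv2, sub_vecMulVec,
    smul_vecMulVec, eL_dot, hx, dot_Pl ψ y hψ, h, zero_smul, smul_zero, sub_zero, add_zero]
  module

theorem sl_bound [Fintype F] (hm : 2 ≤ m) {K : Type*} [Field K] (hK : ringChar K ≠ ringChar F)
    {d : ℕ} (ρ : Matrix.SpecialLinearGroup (Fin (m + 1)) F →* GL (Fin d) K)
    (hker : ρ.ker ≤ Subgroup.center (Matrix.SpecialLinearGroup (Fin (m + 1)) F)) :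
    Fintype.card F ^ m - 1 ≤ d := by
  classical
  haveI : CharP F (ringChar F) := ringChar.charP F
  have hp : (ringChar F).Prime := CharP.char_is_prime F (ringChar F)
  have hpK : ((ringChar F : ℕ) : K) ≠ 0 := by
    intro h
    have h1 := (ringChar.spec K (ringChar F)).1 h
    rcases (Nat.dvd_prime hp).1 h1 with h2 | h2
    · exact CharP.ringChar_ne_one h2
    · exact hK h2
  set iL : Fin (m + 1) := Fin.last m with hiL
  let i0 : Fin (m + 1) := ⟨0, by omega⟩
  let i1 : Fin (m + 1) := ⟨1, by omega⟩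
  have h0L : i0 ≠ iL := fun h => by have := congrArg Fin.val h; simp [i0, iL] at this; omega
  have h1L : i1 ≠ iL := fun h => by have := congrArg Fin.val h; simp [i1, iL] at this; omega
  have h10 : i1 ≠ i0 := fun h => by have := congrArg Fin.val h; simp [i1, i0] at this
  -- nontriviality
  have hy₀ : ρ (aSL (Pi.single i0 (1 : F))) ≠ 1 := by
    intro h
    have hc := hker (MonoidHom.mem_ker.2 h)
    obtain ⟨r, -, hr⟩ := Matrix.SpecialLinearGroup.mem_center_iff.1 hc
    have h2 := congrFun (congrFun hr i0) iL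
    have h3 : ((aSL (Pi.single i0 (1 : F)) : Matrix.SpecialLinearGroup (Fin (m + 1)) F)
        : Matrix (Fin (m + 1)) (Fin (m + 1)) F) i0 iL = 1 := by
      show (1 + vecMulVec (Pl (Pi.single i0 (1 : F))) (Pi.single (Fin.last m) (1 : F))) i0 iL = 1
      rw [Matrix.add_apply, Matrix.one_apply_ne h0L, vecMulVec_apply, Pi.single_eq_same, zero_add,
        mul_one]
      unfold Pl
      rw [Pi.sub_apply, Pi.single_eq_same, Pi.single_eq_of_ne h0L.symm, Pi.single_zero,
        Pi.zero_apply, sub_zero]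
    rw [h3] at h2
    rw [Matrix.scalar_apply, Matrix.diagonal_apply_ne _ h0L] at h2
    exact zero_ne_one h2
  obtain ⟨Ok, ⟨φ₁, hφ₁, hφ₁0⟩, hmove, hcount⟩ :=
    main_count ρ (ringChar F) hpK aSL aSL_add (Pi.single i0 (1 : F)) hy₀
  rw [dotProduct_single, mul_one] at hφ₁0
  -- the basic move
  have hT : ∀ φ φ' x : Fin (m + 1) → F, Ok φ → x iL = 0 → φ ⬝ᵥ x = 1 → φ' ⬝ᵥ x = 1 →
      φ' iL = φ iL → Ok φ' := by
    intro φ φ' x hφ hx h1 h2 hL
    have hψL : (φ - φ') iL = 0 := by rw [Pi.sub_apply, hL, sub_self]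
    have hψx : (φ - φ') ⬝ᵥ x = 0 := by rw [sub_dotProduct, h1, h2, sub_self]
    have h3 := hmove (tvSL x (φ - φ') hψx) (1 - vecMulVec x (φ - φ'))
      (aSL_move x (φ - φ') hx hψL hψx) φ hφ
    have e : φ ᵥ* (1 - vecMulVec x (φ - φ')) = φ' := by
      rw [vecMul_sub, vecMul_one, vecMul_vecMulVec, h1, one_smul]
      abel
    rw [e] at h3
    exact h3
  set c : F := φ₁ iL with hc
  -- step A
  have hA : Ok (φ₁ + Pi.single i1 (1 - φ₁ i1)) := by
    refine hT φ₁ _ (Pi.single i0 (φ₁ i0)⁻¹) hφ₁ (Pi.single_eq_of_ne h0L.symm _) ?_ ?_ ?_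
    · rw [dotProduct_single, mul_inv_cancel₀ hφ₁0]
    · rw [add_dotProduct, dotProduct_single, mul_inv_cancel₀ hφ₁0, single_dotProduct,
        Pi.single_eq_of_ne h10, mul_zero, add_zero]
    · rw [Pi.add_apply, Pi.single_eq_of_ne h1L.symm, add_zero]
  -- step B
  set κ : Fin (m + 1) → F := Pi.single i0 1 + Pi.single iL c with hκ
  have hκ0 : ∀ i : Fin (m + 1), i ≠ i0 → i ≠ iL → κ i = 0 := by
    intro i hi0 hiL'
    rw [hκ, Pi.add_apply, Pi.single_eq_of_ne hi0, Pi.single_eq_of_ne hiL', add_zero]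
  have hκi0 : κ i0 = 1 := by
    rw [hκ, Pi.add_apply, Pi.single_eq_same, Pi.single_eq_of_ne h0L, add_zero]
  have hκL : κ iL = c := by
    rw [hκ, Pi.add_apply, Pi.single_eq_same, Pi.single_eq_of_ne h0L.symm, zero_add]
  have hB : Ok κ := by
    set φ₂ := φ₁ + Pi.single i1 (1 - φ₁ i1) with hφ₂
    have e1 : φ₂ i1 = 1 := by rw [hφ₂, Pi.add_apply, Pi.single_eq_same]; ring
    refine hT φ₂ κ (Pi.single i0 1 + Pi.single i1 (1 - φ₂ i0)) hA ?_ ?_ ?_ ?_
    · rw [Pi.add_apply, Pi.single_eq_of_ne h0L.symm, Pi.single_eq_of_ne h1L.symm, add_zero]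
    · rw [dotProduct_add, dotProduct_single, dotProduct_single, e1]
      ring
    · rw [dotProduct_add, dotProduct_single, dotProduct_single, hκi0, hκ0 i1 h10 h1L]
      ring
    · rw [hκL, hφ₂, Pi.add_apply, Pi.single_eq_of_ne h1L.symm, add_zero]
  -- step C1
  have hC1 : ∀ φ' : Fin (m + 1) → F, φ' iL = c → (∃ i, i ≠ i0 ∧ i ≠ iL ∧ φ' i ≠ 0) → Ok φ' := by
    rintro φ' hL ⟨i, hi0, hiL', hi⟩
    refine hT κ φ' (Pi.single i0 1 + Pi.single i ((1 - φ' i0) / φ' i)) hB ?_ ?_ ?_ ?_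
    · rw [Pi.add_apply, Pi.single_eq_of_ne h0L.symm, Pi.single_eq_of_ne (Ne.symm hiL'), add_zero]
    · rw [dotProduct_add, dotProduct_single, dotProduct_single, hκi0, hκ0 i hi0 hiL']
      ring
    · rw [dotProduct_add, dotProduct_single, dotProduct_single]
      field_simp
      ring
    · rw [hL, hκL]
  -- step C2
  have hC : ∀ φ' : Fin (m + 1) → F, φ' iL = c → (∃ i, i ≠ iL ∧ φ' i ≠ 0) → Ok φ' := by
    rintro φ' hL ⟨i, hiL', hi⟩
    by_cases hex : ∃ i, i ≠ i0 ∧ i ≠ iL ∧ φ' i ≠ 0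
    · exact hC1 φ' hL hex
    · have hi0 : φ' i0 ≠ 0 := by
        by_cases hii : i = i0
        · rw [← hii]; exact hi
        · exact absurd ⟨i, hii, hiL', hi⟩ hex
      have h2 : Ok (φ' + Pi.single i1 (1 - φ' i1)) := by
        apply hC1
        · rw [Pi.add_apply, Pi.single_eq_of_ne h1L.symm, add_zero, hL]
        · refine ⟨i1, h10, h1L, ?_⟩
          rw [Pi.add_apply, Pi.single_eq_same]
          ring_nf
          exact one_ne_zero
      refine hT _ φ' (Pi.single i0 (φ' i0)⁻¹) h2 (Pi.single_eq_of_ne h0L.symm _) ?_ ?_ ?_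
      · rw [add_dotProduct, dotProduct_single, mul_inv_cancel₀ hi0, single_dotProduct,
          Pi.single_eq_of_ne h10, mul_zero, add_zero]
      · rw [dotProduct_single, mul_inv_cancel₀ hi0]
      · rw [Pi.add_apply, Pi.single_eq_of_ne h1L.symm, add_zero]
  -- count
  have hsnoc : Function.Injective (fun y : Fin m → F => (Fin.snoc y c : Fin (m + 1) → F)) := by
    intro y y' h
    have h1 := congrArg (Fin.init (α := fun _ => F)) h
    simpa [Fin.init_snoc] using h1
  have h1 := hcount ((Finset.univ.filter (fun y : Fin m → F => y ≠ 0)).image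
    (fun y : Fin m → F => (Fin.snoc y c : Fin (m + 1) → F))) (by
      intro φ hφ
      obtain ⟨y, hy, rfl⟩ := Finset.mem_image.1 hφ
      have hy0 : y ≠ 0 := (Finset.mem_filter.1 hy).2
      obtain ⟨j, hj⟩ : ∃ j, y j ≠ 0 := by
        by_contra hcon
        push Not at hcon
        exact hy0 (funext hcon)
      apply hC
      · exact Fin.snoc_last (α := fun _ => F) c y
      · refine ⟨Fin.castSucc j, Fin.castSucc_ne_last j, ?_⟩
        rw [Fin.snoc_castSucc (α := fun _ => F)]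
        exact hj)
  rw [Finset.card_image_of_injective _ hsnoc, Finset.filter_ne', Finset.card_erase_of_mem
    (Finset.mem_univ _), Finset.card_univ, Fintype.card_fun, Fintype.card_fin] at h1
  exact h1

end Cfsg.Agent.Helper20.CrossChar
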