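import Mathlib
import Cfsg.Agent.Helper20.CrossChar

/-!
# Cross-characteristic degree bound for `Sp_{2n}(F)`, `|F|` odd: `d ≥ q^(n-1) (q-1) / 2`

The abelian subgroup is `{[[1, S], [0, 1]]}` with `S = e₀ yᵀ + y e₀ᵀ`; the Levi elements
`[[A, 0], [0, A⁻ᵀ]]` with `A⁻¹ e₀ ∈ F e₀` permute its weights.
-/

set_option autoImplicit false

namespace Cfsg.Agent.Helper20.CrossChar

open Matrix

variable {F : Type*} [Field F] {k : ℕ}

theorem vmv3 {ι : Type*} [Fintype ι] (a b c d : ι → F) :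
    vecMulVec a b * vecMulVec c d = (b ⬝ᵥ c) • vecMulVec a d := by
  rw [vecMulVec_mul_vecMulVec, vecMulVec_smul]

/-- The symmetric matrix `e₀ yᵀ + y e₀ᵀ`. -/
def Ssym (y : Fin (k + 1) → F) : Matrix (Fin (k + 1)) (Fin (k + 1)) F :=
  vecMulVec (Pi.single 0 1) y + vecMulVec y (Pi.single 0 1)

theorem Ssym_transpose (y : Fin (k + 1) → F) : (Ssym y)ᵀ = Ssym y := by
  unfold Ssym
  rw [transpose_add, transpose_vecMulVec, transpose_vecMulVec]
  exact add_comm _ _

theorem Ssym_add (x y : Fin (k + 1) → F) : Ssym (x + y) = Ssym x + Ssym y := by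
  unfold Ssym
  rw [vecMulVec_add, add_vecMulVec]
  abel

theorem uni_mem (S : Matrix (Fin (k + 1)) (Fin (k + 1)) F) (hS : Sᵀ = S) :
    fromBlocks 1 S 0 1 ∈ Matrix.symplecticGroup (Fin (k + 1)) F := by
  rw [SymplecticGroup.mem_iff, J, fromBlocks_multiply, fromBlocks_transpose, fromBlocks_multiply]
  simp [hS]

/-- The abelian subgroup. -/
def aSp (y : Fin (k + 1) → F) : ↥(Matrix.symplecticGroup (Fin (k + 1)) F) :=
  ⟨fromBlocks 1 (Ssym y) 0 1, uni_mem _ (Ssym_transpose y)⟩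

theorem aSp_add (x y : Fin (k + 1) → F) : aSp (x + y) = aSp x * aSp y := by
  apply Subtype.ext
  show fromBlocks 1 (Ssym (x + y)) 0 1
    = fromBlocks 1 (Ssym x) 0 1 * fromBlocks 1 (Ssym y) 0 1
  rw [fromBlocks_multiply, Ssym_add]
  simp [add_comm]

theorem levi_mem (A B : Matrix (Fin (k + 1)) (Fin (k + 1)) F) (hAB : A * B = 1) :
    fromBlocks A 0 0 Bᵀ ∈ Matrix.symplecticGroup (Fin (k + 1)) F := by
  have hBA : Bᵀ * Aᵀ = 1 := by rw [← transpose_mul, hAB, transpose_one]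
  rw [SymplecticGroup.mem_iff, J, fromBlocks_multiply, fromBlocks_transpose, fromBlocks_multiply]
  simp [hAB, hBA]

/-- A Levi element. -/
def leviSp (A B : Matrix (Fin (k + 1)) (Fin (k + 1)) F) (hAB : A * B = 1) :
    ↥(Matrix.symplecticGroup (Fin (k + 1)) F) :=
  ⟨fromBlocks A 0 0 Bᵀ, levi_mem A B hAB⟩

theorem aSp_move (A B : Matrix (Fin (k + 1)) (Fin (k + 1)) F) (hAB : A * B = 1)
    (lam : F) (hB : B *ᵥ Pi.single 0 1 = lam • Pi.single 0 1) (y : Fin (k + 1) → F) :
    aSp y * leviSp A B hAB = leviSp A B hAB * aSp ((lam • B) *ᵥ y) := by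
  apply Subtype.ext
  show fromBlocks 1 (Ssym y) 0 1 * fromBlocks A 0 0 Bᵀ
    = fromBlocks A 0 0 Bᵀ * fromBlocks 1 (Ssym ((lam • B) *ᵥ y)) 0 1
  have e : Ssym ((lam • B) *ᵥ y) = B * Ssym y * Bᵀ := by
    unfold Ssym
    rw [Matrix.mul_add, Matrix.add_mul, mul_vecMulVec, mul_vecMulVec, vecMulVec_mul,
      vecMulVec_mul, vecMul_transpose, vecMul_transpose, hB, smul_mulVec, smul_vecMulVec,
      vecMulVec_smul, smul_vecMulVec, vecMulVec_smul]
  have key : Ssym y * Bᵀ = A * Ssym ((lam • B) *ᵥ y) := by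
    rw [e, ← Matrix.mul_assoc, ← Matrix.mul_assoc, hAB, Matrix.one_mul]
  rw [fromBlocks_multiply, fromBlocks_multiply]
  simp [key]

theorem sp_bound [Fintype F] (hodd : Odd (Fintype.card F)) {K : Type*} [Field K]
    (hK : ringChar K ≠ ringChar F) {d : ℕ}
    (ρ : ↥(Matrix.symplecticGroup (Fin (k + 1)) F) →* GL (Fin d) K)
    (hker : ρ.ker ≤ Subgroup.center ↥(Matrix.symplecticGroup (Fin (k + 1)) F)) :
    Fintype.card F ^ k * (Fintype.card F - 1) / 2 ≤ d := by
  classical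
  haveI : CharP F (ringChar F) := ringChar.charP F
  have hp : (ringChar F).Prime := CharP.char_is_prime F (ringChar F)
  have hpK : ((ringChar F : ℕ) : K) ≠ 0 := by
    intro h
    have h1 := (ringChar.spec K (ringChar F)).1 h
    rcases (Nat.dvd_prime hp).1 h1 with h2 | h2
    · exact CharP.ringChar_ne_one h2
    · exact hK h2
  have h2F : (2 : F) ≠ 0 := by
    apply Ring.two_ne_zero
    intro h
    have h1 := FiniteField.even_card_iff_char_two.1 h
    rcases hodd with ⟨t, ht⟩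
    omega
  -- nontriviality
  have hy₀ : ρ (aSp (Pi.single 0 (1 : F))) ≠ 1 := by
    intro h
    have hc := hker (MonoidHom.mem_ker.2 h)
    have h1 := Subgroup.mem_center_iff.1 hc (SymplecticGroup.symJ (Fin (k + 1)) F)
    have h2 : J (Fin (k + 1)) F * fromBlocks 1 (Ssym (Pi.single 0 (1 : F))) 0 1
        = fromBlocks 1 (Ssym (Pi.single 0 (1 : F))) 0 1 * J (Fin (k + 1)) F :=
      congrArg Subtype.val h1
    rw [J, fromBlocks_multiply, fromBlocks_multiply] at h2
    have h3 := congrFun (congrFun h2 (Sum.inl 0)) (Sum.inl 0)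
    rw [fromBlocks_apply₁₁, fromBlocks_apply₁₁] at h3
    simp [Ssym, vecMulVec_apply] at h3
    exact h2F (by linear_combination -h3)
  obtain ⟨Ok, ⟨φ₁, hφ₁, hφ₁0⟩, hmove, hcount⟩ :=
    main_count ρ (ringChar F) hpK aSp aSp_add (Pi.single 0 (1 : F)) hy₀
  rw [dotProduct_single, mul_one] at hφ₁0
  -- move (i): change everything but the first coordinate
  have hT1 : ∀ φ φ' : Fin (k + 1) → F, Ok φ → φ 0 ≠ 0 → φ' 0 = φ 0 → Ok φ' := by
    intro φ φ' hφ hφ0 h0
    set x : Fin (k + 1) → F := Pi.single 0 (φ 0)⁻¹ with hx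
    set ψ : Fin (k + 1) → F := φ' - φ with hψ
    have hψ0 : ψ 0 = 0 := by rw [hψ, Pi.sub_apply, h0, sub_self]
    have hψx : ψ ⬝ᵥ x = 0 := by rw [hx, dotProduct_single, hψ0, zero_mul]
    have hAB : (1 - vecMulVec x ψ) * (1 + vecMulVec x ψ) = 1 := by
      simp only [mul_add, sub_mul, mul_one, one_mul, vmv3, hψx, zero_smul]
      abel
    have hB : (1 + vecMulVec x ψ) *ᵥ Pi.single 0 1 = (1 : F) • Pi.single 0 1 := by
      rw [add_mulVec, one_mulVec, vecMulVec_mulVec, dotProduct_single, hψ0, zero_mul, one_smul,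
        op_smul_eq_smul, zero_smul, add_zero]
    have h3 := hmove (leviSp _ _ hAB) ((1 : F) • (1 + vecMulVec x ψ))
      (aSp_move _ _ hAB 1 hB) φ hφ
    have e : φ ᵥ* ((1 : F) • (1 + vecMulVec x ψ)) = φ' := by
      rw [one_smul, vecMul_add, vecMul_one, vecMul_vecMulVec, hx, dotProduct_single,
        mul_inv_cancel₀ hφ0, one_smul, hψ]
      abel
    rw [e] at h3
    exact h3
  -- move (ii): scale
  have hT2 : ∀ (φ : Fin (k + 1) → F) (lam : F), Ok φ → lam ≠ 0 →
      ∃ φ'' : Fin (k + 1) → F, Ok φ'' ∧ φ'' 0 = lam ^ 2 * φ 0 := by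
    intro φ lam hφ hlam
    have hAB : (diagonal (fun i : Fin (k + 1) => if i = 0 then lam⁻¹ else 1))
        * (diagonal (fun i : Fin (k + 1) => if i = 0 then lam else 1)) = 1 := by
      rw [diagonal_mul_diagonal, ← diagonal_one]
      congr 1
      funext i
      by_cases hi : i = 0
      · simp [hi, inv_mul_cancel₀ hlam]
      · simp [hi]
    have hB : (diagonal (fun i : Fin (k + 1) => if i = 0 then lam else 1)) *ᵥ Pi.single 0 1
        = lam • Pi.single 0 (1 : F) := by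
      rw [diagonal_mulVec_single, if_pos rfl, mul_one, ← Pi.single_smul, smul_eq_mul, mul_one]
    have h3 := hmove (leviSp _ _ hAB) (lam • diagonal (fun i : Fin (k + 1) => if i = 0 then lam else 1))
      (aSp_move _ _ hAB lam hB) φ hφ
    refine ⟨_, h3, ?_⟩
    rw [vecMul_smul, Pi.smul_apply, vecMul_diagonal, smul_eq_mul]
    simp
    ring
  have hT : ∀ (φ' : Fin (k + 1) → F) (lam : F), lam ≠ 0 → φ' 0 = lam ^ 2 * φ₁ 0 → Ok φ' := by
    intro φ' lam hlam h0
    obtain ⟨φ'', hφ'', h''⟩ := hT2 φ₁ lam hφ₁ hlam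
    refine hT1 φ'' φ' hφ'' ?_ (by rw [h0, h''])
    rw [h'']
    exact mul_ne_zero (pow_ne_zero 2 hlam) hφ₁0
  -- count
  set c₀ : F := φ₁ 0 with hc₀
  set Sq : Finset F := (Finset.univ.filter (fun l : F => l ≠ 0)).image (fun l => l ^ 2 * c₀)
    with hSq
  have hSqcard : Fintype.card F - 1 ≤ 2 * Sq.card := by
    have h1 := Finset.card_le_mul_card_image (f := fun l : F => l ^ 2 * c₀)
      (Finset.univ.filter (fun l : F => l ≠ 0)) 2 (by
        intro b hb
        obtain ⟨l₁, -, rfl⟩ := Finset.mem_image.1 hb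
        refine (Finset.card_le_card (t := {l₁, -l₁}) ?_).trans Finset.card_le_two
        intro l hl
        have h2 : l ^ 2 * c₀ = l₁ ^ 2 * c₀ := (Finset.mem_filter.1 hl).2
        have h3 : l ^ 2 = l₁ ^ 2 := mul_right_cancel₀ hφ₁0 h2
        rcases sq_eq_sq_iff_eq_or_eq_neg.1 h3 with h4 | h4
        · rw [h4]; exact Finset.mem_insert_self _ _
        · rw [h4]; exact Finset.mem_insert_of_mem (Finset.mem_singleton_self _))
    have hc : (Finset.univ.filter (fun l : F => l ≠ 0)).card = Fintype.card F - 1 := by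
      rw [Finset.filter_ne', Finset.card_erase_of_mem (Finset.mem_univ _), Finset.card_univ]
    rw [hc] at h1
    exact h1
  have hcons : Function.Injective
      (fun p : F × (Fin k → F) => (Fin.cons p.1 p.2 : Fin (k + 1) → F)) := by
    rintro ⟨t, z⟩ ⟨t', z'⟩ h
    obtain ⟨h1, h2⟩ := Fin.cons_injective2 h
    exact Prod.ext h1 h2
  have h1 := hcount ((Sq ×ˢ (Finset.univ : Finset (Fin k → F))).image
    (fun p : F × (Fin k → F) => (Fin.cons p.1 p.2 : Fin (k + 1) → F))) (by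
      intro φ hφ
      obtain ⟨⟨t, z⟩, hp, rfl⟩ := Finset.mem_image.1 hφ
      have ht : t ∈ Sq := (Finset.mem_product.1 hp).1
      obtain ⟨l, hl, rfl⟩ := Finset.mem_image.1 ht
      exact hT _ l (Finset.mem_filter.1 hl).2 (Fin.cons_zero (α := fun _ => F) _ _))
  rw [Finset.card_image_of_injective _ hcons, Finset.card_product, Finset.card_univ,
    Fintype.card_fun, Fintype.card_fin] at h1
  apply Nat.div_le_of_le_mul
  calc Fintype.card F ^ k * (Fintype.card F - 1) ≤ Fintype.card F ^ k * (2 * Sq.card) :=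
        Nat.mul_le_mul_left _ hSqcard
    _ = 2 * (Sq.card * Fintype.card F ^ k) := by ring
    _ ≤ 2 * d := Nat.mul_le_mul_left _ h1

end Cfsg.Agent.Helper20.CrossChar
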