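import Mathlib

namespace Cfsg.Agent.Helper20.ESD1

variable {p : ℕ} [Fact p.Prime] {V : Type*} [AddCommGroup V] [Module (ZMod p) V] [Finite V]

omit [Finite V] in
theorem xpow_mem (x : V ≃ₗ[ZMod p] V) (L : Submodule (ZMod p) V) (hL : ∀ v ∈ L, x v ∈ L) (k : ℕ) :
    ∀ v ∈ L, (x ^ k) v ∈ L := by
  induction k with
  | zero => intro v hv; simpa using hv
  | succ k ih =>
    intro v hv
    rw [pow_succ', LinearEquiv.mul_apply]
    exact hL _ (ih v hv)

theorem maschke (x : V ≃ₗ[ZMod p] V) (h : ℕ) (hh : x ^ h = 1) (hcop : h.Coprime p)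
    (L M : Submodule (ZMod p) V) (hLM : L ≤ M) (hL : ∀ v ∈ L, x v ∈ L) (hM : ∀ v ∈ M, x v ∈ M) :
    ∃ C : Submodule (ZMod p) V, C ≤ M ∧ (∀ v ∈ C, x v ∈ C) ∧ L ⊓ C = ⊥ ∧ L ⊔ C = M := by
  classical
  have hp : p.Prime := Fact.out
  have hh0 : ((h : ℕ) : ZMod p) ≠ 0 := by
    intro h0
    rw [ZMod.natCast_eq_zero_iff] at h0
    have := Nat.Coprime.eq_one_of_dvd hcop.symm h0
    exact hp.one_lt.ne' this
  obtain ⟨L', hL'⟩ := Submodule.exists_isCompl L
  let π₀ : V →ₗ[ZMod p] V := L.subtype ∘ₗ Submodule.projectionOnto L L' hL'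
  have h0L : ∀ v, π₀ v ∈ L := fun v => (Submodule.projectionOnto L L' hL' v).2
  have h0id : ∀ v ∈ L, π₀ v = v := by
    intro v hv
    have := Submodule.projectionOnto_apply_left hL' ⟨v, hv⟩
    have h2 : π₀ v = ((Submodule.projectionOnto L L' hL' v : L) : V) := rfl
    rw [h2]
    exact congrArg Subtype.val this
  let f : ℕ → V →ₗ[ZMod p] V := fun i =>
    (x ^ (h - i) : V ≃ₗ[ZMod p] V).toLinearMap ∘ₗ π₀ ∘ₗ (x ^ i : V ≃ₗ[ZMod p] V).toLinearMap
  have hf : ∀ i v, f i v = (x ^ (h - i)) (π₀ ((x ^ i) v)) := fun i v => rfl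
  let S : V →ₗ[ZMod p] V := ∑ i ∈ Finset.range h, f i
  have hS : ∀ v, S v = ∑ i ∈ Finset.range h, f i v := by
    intro v; simp [S, LinearMap.sum_apply]
  let π : V →ₗ[ZMod p] V := ((h : ZMod p))⁻¹ • S
  have hπ : ∀ v, π v = ((h : ZMod p))⁻¹ • S v := fun v => rfl
  -- (a)
  have hSL : ∀ v, S v ∈ L := by
    intro v; rw [hS]
    exact Submodule.sum_mem _ (fun i _ => by rw [hf]; exact xpow_mem x L hL _ _ (h0L _))
  have hπL : ∀ v, π v ∈ L := fun v => by rw [hπ]; exact L.smul_mem _ (hSL v)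
  -- (b)
  have hSid : ∀ v ∈ L, S v = (h : ZMod p) • v := by
    intro v hv
    rw [hS]
    have : ∀ i ∈ Finset.range h, f i v = v := by
      intro i hi
      rw [hf, h0id _ (xpow_mem x L hL i v hv), ← LinearEquiv.mul_apply, ← pow_add,
        Nat.sub_add_cancel (Finset.mem_range.mp hi).le, hh]
      rfl
    rw [Finset.sum_congr rfl this]
    simp [Nat.cast_smul_eq_nsmul]
  have hπid : ∀ v ∈ L, π v = v := by
    intro v hv
    rw [hπ, hSid v hv, smul_smul, inv_mul_cancel₀ hh0, one_smul]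
  -- (c)
  have hshift : ∀ v, ∑ i ∈ Finset.range h, f (i + 1) v = ∑ i ∈ Finset.range h, f i v := by
    intro v
    have h1 := Finset.sum_range_succ (fun i => f i v) h
    have h2 := Finset.sum_range_succ' (fun i => f i v) h
    have h3 : f h v = f 0 v := by
      rw [hf, hf]; simp [hh]
    rw [h1] at h2
    rw [h3] at h2
    exact (add_right_cancel h2).symm
  have hSx : ∀ v, S (x v) = x (S v) := by
    intro v
    rw [hS, hS, ← hshift v, map_sum]
    apply Finset.sum_congr rfl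
    intro i hi
    have hi' := Finset.mem_range.mp hi
    rw [hf, hf]
    have e1 : (x ^ i) (x v) = (x ^ (i + 1)) v := by
      rw [pow_succ, LinearEquiv.mul_apply]
    have e2 : h - i = (h - (i + 1)) + 1 := by omega
    rw [e1, e2, pow_succ', LinearEquiv.mul_apply]
  have hπx : ∀ v, π (x v) = x (π v) := by
    intro v; rw [hπ, hπ, hSx, map_smul]
  refine ⟨M ⊓ LinearMap.ker π, inf_le_left, ?_, ?_, ?_⟩
  · intro v hv
    rw [Submodule.mem_inf, LinearMap.mem_ker] at hv ⊢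
    exact ⟨hM v hv.1, by rw [hπx, hv.2, map_zero]⟩
  · rw [eq_bot_iff]
    intro v hv
    rw [Submodule.mem_inf, Submodule.mem_inf, LinearMap.mem_ker] at hv
    rw [Submodule.mem_bot, ← hπid v hv.1, hv.2.2]
  · apply le_antisymm
    · exact sup_le hLM inf_le_left
    · intro v hv
      have : v = π v + (v - π v) := by abel
      rw [this]
      apply Submodule.add_mem_sup (hπL v)
      rw [Submodule.mem_inf, LinearMap.mem_ker]
      refine ⟨M.sub_mem hv (hLM (hπL v)), ?_⟩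
      rw [map_sub, hπid _ (hπL v), sub_self]

end Cfsg.Agent.Helper20.ESD1
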