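import Mathlib

/-!
# Stem extensions of a finitely presented finite group

If `G = ⟨x₁, …, xₙ | rels⟩` is finite and `σ : Γ → G` is a stem extension, then `ker σ` is
generated by `|rels| - n` elements: it is the image of the kernel of the exponent-sum map
`ℤ^rels → ℤ^n`, which is free of rank `|rels| - n`.
-/

set_option autoImplicit false

namespace Cfsg.Agent.Helper20.MultRank

open Subgroup
open scoped commutatorElement
open scoped IsMulCommutative

lemma comm_center_mul {G : Type*} [Group G] (z a b : G) (hz : ∀ g, g * z = z * g) :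
    ⁅z * a, b⁆ = ⁅a, b⁆ := by
  rw [commutatorElement_def, commutatorElement_def, mul_inv_rev]
  calc z * a * b * (a⁻¹ * z⁻¹) * b⁻¹ = z * (a * b * a⁻¹) * z⁻¹ * b⁻¹ := by group
    _ = (a * b * a⁻¹) * z * z⁻¹ * b⁻¹ := by rw [← hz]
    _ = a * b * a⁻¹ * b⁻¹ := by group

lemma comm_mul_center {G : Type*} [Group G] (z a b : G) (hz : ∀ g, g * z = z * g) :
    ⁅a, z * b⁆ = ⁅a, b⁆ := by
  rw [commutatorElement_def, commutatorElement_def, mul_inv_rev]
  calc a * (z * b) * a⁻¹ * (b⁻¹ * z⁻¹) = (a * z) * (b * a⁻¹ * b⁻¹) * z⁻¹ := by group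
    _ = z * a * (b * a⁻¹ * b⁻¹) * z⁻¹ := by rw [hz]
    _ = z * (a * b * a⁻¹ * b⁻¹) * z⁻¹ := by group
    _ = (a * b * a⁻¹ * b⁻¹) * z * z⁻¹ := by rw [← hz]
    _ = a * b * a⁻¹ * b⁻¹ := by group

variable {n : ℕ} (rels : Finset (FreeGroup (Fin n)))
  {Γ : Type*} [Group Γ]
  (σ : Γ →* PresentedGroup (rels : Set (FreeGroup (Fin n))))

/-- A stem extension of a presented group is generated by lifts of the generators. -/
theorem exists_lift (hs : Function.Surjective σ) (hc : σ.ker ≤ Subgroup.center Γ)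
    (hd : σ.ker ≤ commutator Γ) :
    ∃ φ : FreeGroup (Fin n) →* Γ,
      (∀ w, σ (φ w) = PresentedGroup.mk (rels : Set (FreeGroup (Fin n))) w) ∧
        Function.Surjective φ := by
  choose γ hγ using fun i : Fin n => hs (PresentedGroup.of i)
  let φ : FreeGroup (Fin n) →* Γ := FreeGroup.lift γ
  have hσφ : ∀ w, σ (φ w) = PresentedGroup.mk (rels : Set (FreeGroup (Fin n))) w := by
    intro w
    have : σ.comp φ = PresentedGroup.mk (rels : Set (FreeGroup (Fin n))) := by
      apply FreeGroup.ext_hom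
      intro i
      rw [MonoidHom.comp_apply]
      show σ (FreeGroup.lift γ (FreeGroup.of i)) = _
      rw [FreeGroup.lift_apply_of, hγ]
      rfl
    exact DFunLike.congr_fun this w
  refine ⟨φ, hσφ, ?_⟩
  have hdec : ∀ g : Γ, ∃ w, g * (φ w)⁻¹ ∈ σ.ker := by
    intro g
    obtain ⟨w, hw⟩ := PresentedGroup.mk_surjective (rels : Set (FreeGroup (Fin n))) (σ g)
    refine ⟨w, ?_⟩
    rw [MonoidHom.mem_ker, map_mul, map_inv, hσφ, hw, mul_inv_cancel]
  have hcomm : commutator Γ ≤ φ.range := by
    rw [commutator_eq_closure, Subgroup.closure_le]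
    rintro _ ⟨g₁, g₂, rfl⟩
    obtain ⟨w₁, h₁⟩ := hdec g₁
    obtain ⟨w₂, h₂⟩ := hdec g₂
    have e₁ : g₁ = (g₁ * (φ w₁)⁻¹) * φ w₁ := by group
    have e₂ : g₂ = (g₂ * (φ w₂)⁻¹) * φ w₂ := by group
    rw [e₁, e₂, comm_center_mul _ _ _ (Subgroup.mem_center_iff.1 (hc h₁)),
      comm_mul_center _ _ _ (Subgroup.mem_center_iff.1 (hc h₂)), ← map_commutatorElement]
    exact ⟨_, rfl⟩
  intro g
  obtain ⟨w, hw⟩ := hdec g
  obtain ⟨w', hw'⟩ := hcomm (hd hw)
  refine ⟨w' * w, ?_⟩
  rw [map_mul, hw']
  group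

/-- The kernel of a finite stem extension of a finite presented group is generated by
`|rels| - n` elements. -/
theorem ker_generated [Finite (PresentedGroup (rels : Set (FreeGroup (Fin n))))]
    (hs : Function.Surjective σ) (hc : σ.ker ≤ Subgroup.center Γ)
    (hd : σ.ker ≤ commutator Γ) :
    ∃ S : Finset σ.ker, S.card ≤ rels.card - n ∧ Subgroup.closure (S : Set σ.ker) = ⊤ := by
  classical
  obtain ⟨φ, hσφ, hφs⟩ := exists_lift rels σ hs hc hd
  have hζk : ∀ j : rels, φ j.1 ∈ σ.ker := fun j => by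
    rw [MonoidHom.mem_ker, hσφ]
    exact PresentedGroup.one_of_mem (Finset.mem_coe.2 j.2)
  let ζ : rels → Additive (Subgroup.center Γ) := fun j => Additive.ofMul ⟨φ j.1, hc (hζk j)⟩
  let Ψ : (rels → ℤ) →ₗ[ℤ] Additive (Subgroup.center Γ) := Fintype.linearCombination ℤ ζ
  let e : FreeGroup (Fin n) →* Multiplicative (Fin n → ℤ) :=
    FreeGroup.lift (fun i => Multiplicative.ofAdd (Pi.single i (1 : ℤ)))
  let E : (rels → ℤ) →ₗ[ℤ] (Fin n → ℤ) :=
    Fintype.linearCombination ℤ (fun j : rels => (e j.1).toAdd)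
  -- the values of `Ψ` lie in the kernel
  let W : AddSubgroup (Additive (Subgroup.center Γ)) :=
    Subgroup.toAddSubgroup (σ.ker.subgroupOf (Subgroup.center Γ))
  have hW : ∀ x : Additive (Subgroup.center Γ), x ∈ W ↔ ((x.toMul : Subgroup.center Γ) : Γ) ∈ σ.ker :=
    fun x => Iff.rfl
  have hΨZ : ∀ a : rels → ℤ, (((Ψ a).toMul : Subgroup.center Γ) : Γ) ∈ σ.ker := by
    intro a
    rw [← hW]
    show Fintype.linearCombination ℤ ζ a ∈ W
    rw [Fintype.linearCombination_apply]
    refine W.sum_mem (fun j _ => W.zsmul_mem ?_ _)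
    rw [hW]
    exact hζk j
  -- the subgroup of words whose image is controlled
  let T : Subgroup (FreeGroup (Fin n)) :=
    { carrier := {c | ∃ a : rels → ℤ, φ c = (((Ψ a).toMul : Subgroup.center Γ) : Γ) ∧
        (e c).toAdd = E a}
      mul_mem' := by
        rintro c c' ⟨a, h1, h2⟩ ⟨b, h3, h4⟩
        refine ⟨a + b, ?_, ?_⟩
        · rw [map_mul, h1, h3, map_add]; rfl
        · rw [map_mul, toAdd_mul, h2, h4, map_add]
      one_mem' := by
        refine ⟨0, ?_, ?_⟩
        · rw [map_one, map_zero]; rfl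
        · rw [map_one, map_zero]; rfl
      inv_mem' := by
        rintro c ⟨a, h1, h2⟩
        refine ⟨-a, ?_, ?_⟩
        · rw [map_inv, h1, map_neg]; rfl
        · rw [map_inv, toAdd_inv, h2, map_neg] }
  have hTn : T.Normal := by
    refine ⟨?_⟩
    rintro c ⟨a, h1, h2⟩ w
    refine ⟨a, ?_, ?_⟩
    · rw [map_mul, map_mul, map_inv, h1,
        Subgroup.mem_center_iff.1 ((Ψ a).toMul : Subgroup.center Γ).2 (φ w), mul_inv_cancel_right]
    · have he : e (w * c * w⁻¹) = e c := by
        rw [MonoidHom.map_mul, MonoidHom.map_mul, MonoidHom.map_inv, mul_inv_cancel_comm]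
      rw [he, h2]
  have hT : Subgroup.normalClosure (rels : Set (FreeGroup (Fin n))) ≤ T := by
    apply Subgroup.normalClosure_le_normal
    intro r hr
    refine ⟨Pi.single ⟨r, Finset.mem_coe.1 hr⟩ 1, ?_, ?_⟩
    · show φ r = (((Fintype.linearCombination ℤ ζ (Pi.single ⟨r, Finset.mem_coe.1 hr⟩ 1)).toMul :
        Subgroup.center Γ) : Γ)
      rw [Fintype.linearCombination_apply_single, one_smul]
      rfl
    · show (e r).toAdd = Fintype.linearCombination ℤ (fun j : rels => (e j.1).toAdd)
        (Pi.single ⟨r, Finset.mem_coe.1 hr⟩ 1)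
      rw [Fintype.linearCombination_apply_single, one_smul]
  -- every element of the kernel comes from the kernel of `E`
  have hZ : ∀ z ∈ σ.ker, ∃ a : rels → ℤ, E a = 0 ∧
      z = (((Ψ a).toMul : Subgroup.center Γ) : Γ) := by
    intro z hz
    have hzc : z ∈ Subgroup.map φ (commutator (FreeGroup (Fin n))) := by
      rw [_root_.commutator_def, Subgroup.map_commutator, Subgroup.map_top_of_surjective φ hφs,
        ← _root_.commutator_def]
      exact hd hz
    obtain ⟨c, hc1, rfl⟩ := hzc
    have hcR : c ∈ Subgroup.normalClosure (rels : Set (FreeGroup (Fin n))) := by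
      rw [← PresentedGroup.mk_eq_one_iff, ← hσφ]
      exact hz
    obtain ⟨a, h1, h2⟩ := hT hcR
    refine ⟨a, ?_, h1⟩
    rw [← h2]
    have : e c = 1 := Abelianization.commutator_subset_ker e hc1
    rw [this]
    rfl
  -- the rank of the range of `E`
  have hNpos : 0 < Nat.card (PresentedGroup (rels : Set (FreeGroup (Fin n)))) := Nat.card_pos
  set N : ℕ := Nat.card (PresentedGroup (rels : Set (FreeGroup (Fin n)))) with hNdef
  have hNδ : ∀ i : Fin n, (N : ℤ) • (Pi.single i 1 : Fin n → ℤ) ∈ LinearMap.range E := by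
    intro i
    have h1 : (FreeGroup.of i) ^ N ∈ Subgroup.normalClosure (rels : Set (FreeGroup (Fin n))) := by
      rw [← PresentedGroup.mk_eq_one_iff, map_pow]
      exact pow_card_eq_one'
    obtain ⟨a, -, h2⟩ := hT h1
    refine ⟨a, ?_⟩
    rw [← h2]
    show ((FreeGroup.lift (fun i => Multiplicative.ofAdd (Pi.single i (1 : ℤ))))
      ((FreeGroup.of i) ^ N)).toAdd = _
    rw [map_pow, FreeGroup.lift_apply_of, toAdd_pow, toAdd_ofAdd, natCast_zsmul]
  have hNv : ∀ v : Fin n → ℤ, (N : ℤ) • v ∈ LinearMap.range E := by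
    intro v
    rw [pi_eq_sum_univ' v, Finset.smul_sum]
    refine Submodule.sum_mem _ (fun i _ => ?_)
    rw [smul_comm]
    exact Submodule.smul_mem _ _ (hNδ i)
  let μ : (Fin n → ℤ) →ₗ[ℤ] LinearMap.range E :=
    LinearMap.codRestrict (LinearMap.range E) ((N : ℤ) • LinearMap.id) (fun v => hNv v)
  have hμ : Function.Injective μ := by
    intro v w h
    have h' := congrArg Subtype.val h
    have h'' : (N : ℤ) • v = (N : ℤ) • w := h'
    exact smul_right_injective _ (Int.natCast_ne_zero.2 hNpos.ne') h''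
  have hfr : n ≤ Module.finrank ℤ (LinearMap.range E) := by
    have := LinearMap.finrank_le_finrank_of_injective hμ
    simpa using this
  have hrn : Module.finrank ℤ (LinearMap.range E) + Module.finrank ℤ (LinearMap.ker E) =
      Module.finrank ℤ (rels → ℤ) := by
    rw [← (LinearMap.ker E).finrank_quotient_add_finrank, E.quotKerEquivRange.finrank_eq]
  have hr : Module.finrank ℤ (rels → ℤ) = rels.card := by
    simp
  rw [hr] at hrn
  let b := Module.finBasis ℤ (LinearMap.ker E)
  let S : Finset σ.ker := Finset.univ.image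
    (fun i => (⟨(((Ψ (b i : rels → ℤ)).toMul : Subgroup.center Γ) : Γ), hΨZ _⟩ : σ.ker))
  refine ⟨S, ?_, ?_⟩
  · refine le_trans Finset.card_image_le ?_
    rw [Finset.card_univ, Fintype.card_fin]
    omega
  · rw [eq_top_iff]
    rintro ⟨z, hz⟩ -
    obtain ⟨a, ha0, rfl⟩ := hZ z hz
    have hspan : a ∈ Submodule.span ℤ (Set.range (fun i => (b i : rels → ℤ))) := by
      have h1 : (⟨a, ha0⟩ : LinearMap.ker E) ∈ Submodule.span ℤ (Set.range b) := by
        rw [b.span_eq]; trivial
      have h2 := Submodule.mem_map_of_mem (f := (LinearMap.ker E).subtype) h1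
      rw [Submodule.map_span, ← Set.range_comp] at h2
      exact h2
    have key : ∀ x ∈ Submodule.span ℤ (Set.range (fun i => (b i : rels → ℤ))),
        ∀ h : (((Ψ x).toMul : Subgroup.center Γ) : Γ) ∈ σ.ker,
          (⟨_, h⟩ : σ.ker) ∈ Subgroup.closure (S : Set σ.ker) := by
      intro x hx
      induction hx using Submodule.span_induction with
      | mem x hx =>
        intro h
        obtain ⟨i, rfl⟩ := hx
        exact Subgroup.subset_closure (Finset.mem_coe.2 (Finset.mem_image.2 ⟨i, Finset.mem_univ _, rfl⟩))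
      | zero =>
        intro h
        have : (⟨_, h⟩ : σ.ker) = 1 := by
          apply Subtype.ext
          show (((Ψ 0).toMul : Subgroup.center Γ) : Γ) = 1
          rw [map_zero]; rfl
        rw [this]
        exact one_mem _
      | add x y hx hy ihx ihy =>
        intro h
        have : (⟨_, h⟩ : σ.ker) = ⟨_, hΨZ x⟩ * ⟨_, hΨZ y⟩ := by
          apply Subtype.ext
          show (((Ψ (x + y)).toMul : Subgroup.center Γ) : Γ) = _
          rw [map_add]; rfl
        rw [this]
        exact mul_mem (ihx _) (ihy _)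
      | smul c x hx ih =>
        intro h
        have : (⟨_, h⟩ : σ.ker) = ⟨_, hΨZ x⟩ ^ c := by
          apply Subtype.ext
          show (((Ψ (c • x)).toMul : Subgroup.center Γ) : Γ) = _
          rw [map_smul]; rfl
        rw [this]
        exact zpow_mem (ih _) _
    exact key a hspan _

end Cfsg.Agent.Helper20.MultRank
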