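import Mathlib
import Cfsg.Agent.Helper25.NSmT
import Cfsg.Agent.Helper27.NS1

set_option autoImplicit false

namespace Cfsg.Agent.Helper20.OmMa

open Matrix Cfsg.Agent.Helper4.OrthPlane Cfsg.Agent.Helper4.Dickson

variable {ι : Type} [Fintype ι] [DecidableEq ι] {F : Type*} [Field F] [Fintype F]

/-- (M1a) In characteristic two, `Ω(Q)` is transitive on the vectors of norm one. -/
theorem omega_trans (Q : (ι → F) → F) (hQ : Cfsg.Geo.IsNondegenerateQuadraticForm Q)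
    (hch : (2 : F) = 0) (hn : 5 ≤ Fintype.card ι) (a b : ι → F) (ha : Q a = 1) (hb : Q b = 1) :
    ∃ g ∈ Cfsg.Geo.omegaGL Q, (g : Matrix ι ι F) *ᵥ a = b := by
  have hcard : Fintype.card F ≠ 2 ∨ Fintype.card ι ≠ 4 := Or.inr (by omega)
  have hne : Nonempty ι := by
    rw [← Fintype.card_pos_iff]; omega
  have ha0 : Q a ≠ 0 := by rw [ha]; exact one_ne_zero
  have hb0 : Q b ≠ 0 := by rw [hb]; exact one_ne_zero
  have hnd : ∀ u ∈ (⊤ : Submodule F (ι → F)),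
      (∀ w ∈ (⊤ : Submodule F (ι → F)), Bf Q hQ u w = 0) → u = 0 := by
    intro u _ hu
    exact (Bf_nondeg Q hQ).1 u (fun w => hu w Submodule.mem_top)
  obtain ⟨g, hgO, hga, -, -⟩ := Cfsg.Agent.Helper25.NSmT.exists_move Q hQ hch ⊤ hnd a b
    Submodule.mem_top Submodule.mem_top ha hb
  -- the membership criterion
  have key : ∀ g' : GL ι F, g' ∈ Cfsg.isometryGroup F Q → dk g' = 0 →
      g' ∈ Cfsg.Geo.omegaGL Q := by
    intro g' hg' hdk
    have h1 := Cfsg.Agent.Helper27.NS1.mem_of_dk_eq_zero Q hQ hch hcard hne a ha0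
      (⟨g', hg'⟩ : ↥(Cfsg.isometryGroup F Q)) hdk
    exact ⟨⟨g', hg'⟩, h1, rfl⟩
  by_cases hdk : dk g = 0
  · exact ⟨g, key g hgO hdk, hga⟩
  · have hdk1 : dk g = 1 := by
      have h2 : ∀ t : ZMod 2, t ≠ 0 → t = 1 := by decide
      exact h2 _ hdk
    refine ⟨rG Q hQ b hb0 * g, key _ (Subgroup.mul_mem _ (rG_mem Q hQ b hb0) hgO) ?_, ?_⟩
    · rw [Cfsg.Agent.Helper27.NS1.dk_mul Q hQ hcard _ _ (rG_mem Q hQ b hb0) hgO,
        Cfsg.Agent.Helper27.NS1.dk_rG, hdk1]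
      decide
    · have h3 : ((rG Q hQ b hb0 * g : GL ι F) : Matrix ι ι F) = R Q hQ b * (g : Matrix ι ι F) := rfl
      rw [h3, ← Matrix.mulVec_mulVec, hga, R_mulVec, Bf_self Q hQ, hch, zero_mul, mul_zero,
        zero_smul, sub_zero]

end Cfsg.Agent.Helper20.OmMa
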