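import Mathlib
import Cfsg.Agent.Helper23.PSolv
import Cfsg.Agent.S0634

/-!
Helper library (helper20): unfolding the upper `p`-series at small positions and
`p`-length one.
-/

set_option autoImplicit false

namespace Cfsg.Agent.Helper20.PLen

open Cfsg Cfsg.Agent.Helper23

variable {G : Type*} [Group G]

theorem upper_zero (p : ℕ) : (upperPSeries p G 0).1 = ⊥ := by
  rw [upperPSeries]

theorem upper_succ_even (p : ℕ) (n : ℕ) (hn : Even n) : (upperPSeries p G (n + 1)).1 =
    (pPrimeCore p (G ⧸ (upperPSeries p G n).1)).comap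
      (QuotientGroup.mk' (upperPSeries p G n).1) := by
  rw [upperPSeries]
  simp [hn]

theorem upper_succ_odd (p : ℕ) (n : ℕ) (hn : ¬ Even n) : (upperPSeries p G (n + 1)).1 =
    (pCore p (G ⧸ (upperPSeries p G n).1)).comap
      (QuotientGroup.mk' (upperPSeries p G n).1) := by
  rw [upperPSeries]
  simp [hn]

theorem relIndex_comap_mk (N : Subgroup G) [N.Normal] (Y : Subgroup (G ⧸ N)) :
    N.relIndex (Y.comap (QuotientGroup.mk' N)) = Nat.card Y := by
  have h := Subgroup.relIndex_ker (QuotientGroup.mk' N) (K := Y.comap (QuotientGroup.mk' N))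
  rw [QuotientGroup.ker_mk',
    Subgroup.map_comap_eq_self_of_surjective (QuotientGroup.mk'_surjective N)] at h
  exact h

theorem le_comap_mk (N : Subgroup G) [N.Normal] (Y : Subgroup (G ⧸ N)) :
    N ≤ Y.comap (QuotientGroup.mk' N) := by
  intro x hx
  rw [Subgroup.mem_comap]
  have : QuotientGroup.mk' N x = 1 := by
    rw [QuotientGroup.mk'_apply, QuotientGroup.eq_one_iff]; exact hx
  rw [this]; exact Y.one_mem

theorem index_comap_mk (N : Subgroup G) [N.Normal] (Y : Subgroup (G ⧸ N)) :
    (Y.comap (QuotientGroup.mk' N)).index = Y.index :=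
  Subgroup.index_comap_of_surjective Y (QuotientGroup.mk'_surjective N)

/-- `O_{p'}(G / O_{p'}(G)) = 1`, phrased with the first term of the upper `p`-series. -/
theorem pPrimeCore_quot_upper_one [Finite G] (p : ℕ) :
    pPrimeCore p (G ⧸ (upperPSeries p G 1).1) = ⊥ :=
  S0634.pPrimeCore_quotient_comap p (upperPSeries p G 0).1 (upperPSeries p G 1).1
    (upper_succ_even p 0 ⟨0, rfl⟩)

/-- Criterion for `p`-length at most one. -/
theorem plen_one_of [Finite G] (p : ℕ) [Fact p.Prime]
    (h : ¬ p ∣ (pCore p (G ⧸ (upperPSeries p G 1).1)).index) : PLengthLE p 1 G := by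
  have h2 := upper_succ_odd (G := G) p 1 (by decide)
  have h3 := upper_succ_even (G := G) p 2 ⟨1, rfl⟩
  have hidx : (upperPSeries p G (1 + 1)).1.index
      = (pCore p (G ⧸ (upperPSeries p G 1).1)).index := by
    rw [h2]; exact index_comap_mk _ _
  have hcop : (Nat.card (G ⧸ (upperPSeries p G (1 + 1)).1)).Coprime p := by
    rw [← Subgroup.index_eq_card, hidx]
    exact ((Nat.Prime.coprime_iff_not_dvd Fact.out).mpr h).symm
  have htop : (⊤ : Subgroup (G ⧸ (upperPSeries p G (1 + 1)).1)) ≤ pPrimeCore p _ :=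
    le_pPrimeCore inferInstance (by rw [Subgroup.card_top]; exact hcop)
  show (upperPSeries p G (2 + 1)).1 = ⊤
  rw [h3]
  have h4 : pPrimeCore p (G ⧸ (upperPSeries p G 2).1) = ⊤ := top_le_iff.mp htop
  rw [h4, Subgroup.comap_top]

/-- The data carried by `p`-length at most one: normal subgroups `K ≤ U` with `K` a
`p'`-group, `U / K` a `p`-group and `G / U` a `p'`-group. -/
theorem plen_one_data [Finite G] (p : ℕ) [Fact p.Prime] (hpl : PLengthLE p 1 G) :
    ∃ K U : Subgroup G, K.Normal ∧ U.Normal ∧ K ≤ U ∧ (Nat.card K).Coprime p ∧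
      (∃ m : ℕ, K.relIndex U = p ^ m) ∧ ¬ p ∣ U.index := by
  have h0 := upper_zero (G := G) p
  have h1 := upper_succ_even (G := G) p 0 ⟨0, rfl⟩
  have h2 := upper_succ_odd (G := G) p 1 (by decide)
  have h3 := upper_succ_even (G := G) p 2 ⟨1, rfl⟩
  have hpl' : (upperPSeries p G (2 + 1)).1 = ⊤ := hpl
  refine ⟨(upperPSeries p G (0 + 1)).1, (upperPSeries p G (1 + 1)).1, (upperPSeries p G 1).2,
    (upperPSeries p G 2).2, ?_, ?_, ?_, ?_⟩
  · rw [h2]; exact le_comap_mk _ _
  · have e1 : (upperPSeries p G 0).1.relIndex (upperPSeries p G (0 + 1)).1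
        = Nat.card (pPrimeCore p (G ⧸ (upperPSeries p G 0).1)) := by
      rw [h1]; exact relIndex_comap_mk _ _
    have e2 : (upperPSeries p G 0).1.relIndex (upperPSeries p G (0 + 1)).1
        = Nat.card (upperPSeries p G (0 + 1)).1 := by
      rw [h0, Subgroup.relIndex_bot_left]
    rw [← e2, e1]
    exact pPrimeCore_coprime p
  · obtain ⟨m, hm⟩ := (pCore_isPGroup p (G := G ⧸ (upperPSeries p G 1).1)).exists_card_eq
    refine ⟨m, ?_⟩
    rw [h2, relIndex_comap_mk, hm]
  · have e1 : (upperPSeries p G 2).1.relIndex (upperPSeries p G (2 + 1)).1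
        = Nat.card (pPrimeCore p (G ⧸ (upperPSeries p G 2).1)) := by
      rw [h3]; exact relIndex_comap_mk _ _
    rw [hpl', Subgroup.relIndex_top_right] at e1
    have e3 : ((upperPSeries p G 2).1.index).Coprime p := by
      rw [e1]; exact pPrimeCore_coprime p
    exact (Nat.Prime.coprime_iff_not_dvd Fact.out).mp e3.symm

end Cfsg.Agent.Helper20.PLen
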