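import Mathlib

set_option autoImplicit false

namespace Cfsg.Agent.Helper20.ProjCount

open scoped LinearAlgebra.Projectivization

variable {F : Type*} [Field F] {V : Type*} [AddCommGroup V] [Module F V]

/-- the points of the projective space lying in a subspace -/
def pts (W : Submodule F V) : Set (ℙ F V) := {y | y.rep ∈ W}

theorem mk_mem_pts (W : Submodule F V) (v : V) (hv : v ≠ 0) :
    Projectivization.mk F v hv ∈ pts W ↔ v ∈ W := by
  obtain ⟨a, ha⟩ := Projectivization.exists_smul_eq_mk_rep F v hv
  show (Projectivization.mk F v hv).rep ∈ W ↔ v ∈ W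
  rw [← ha, Units.smul_def]
  constructor
  · intro h
    have h2 := W.smul_mem ((a⁻¹ : Fˣ) : F) h
    rwa [smul_smul, Units.inv_mul, one_smul] at h2
  · intro h
    exact W.smul_mem _ h

theorem card_proj_mod [Finite F] [Finite V] [Nontrivial V] :
    (Nat.card (ℙ F V) : ZMod (Nat.card F)) = 1 := by
  classical
  have h1 := Projectivization.card' F V
  haveI : Fintype F := Fintype.ofFinite F
  haveI : Fintype V := Fintype.ofFinite V
  have hq : Nat.card F ∣ Nat.card V := by
    rw [Nat.card_eq_fintype_card, Nat.card_eq_fintype_card,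
      Module.card_eq_pow_finrank (K := F) (V := V)]
    exact dvd_pow_self _ (Module.finrank_pos (R := F) (M := V)).ne'
  have hq1 : 1 ≤ Nat.card F := Nat.card_pos
  have h2 := congrArg (Nat.cast : ℕ → ZMod (Nat.card F)) h1
  rw [(ZMod.natCast_eq_zero_iff _ _).2 hq] at h2
  push_cast [Nat.cast_sub hq1] at h2
  rw [ZMod.natCast_self] at h2
  linear_combination h2

theorem card_pts_eq (W : Submodule F V) :
    Nat.card (pts W) = Nat.card (ℙ F W) := by
  symm
  apply Nat.card_congr
  refine Equiv.ofBijective
    (fun z => ⟨Projectivization.map W.subtype W.injective_subtype z, ?_⟩) ⟨?_, ?_⟩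
  · induction z using Projectivization.ind with
    | h v hv =>
      rw [Projectivization.map_mk, mk_mem_pts]
      exact v.2
  · intro z z' h
    have h' := congrArg Subtype.val h
    exact Projectivization.map_injective _ W.injective_subtype h'
  · rintro ⟨y, hy⟩
    have hne : (⟨y.rep, hy⟩ : W) ≠ 0 := by
      intro h0
      exact y.rep_nonzero (congrArg Subtype.val h0)
    refine ⟨Projectivization.mk F ⟨y.rep, hy⟩ hne, ?_⟩
    apply Subtype.ext
    show Projectivization.map W.subtype W.injective_subtype (Projectivization.mk F ⟨y.rep, hy⟩ hne) = y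
    rw [Projectivization.map_mk]
    exact y.mk_rep

theorem card_pts_mod [Finite F] [Finite V] (W : Submodule F V) (hW : W ≠ ⊥) :
    (Nat.card (pts W) : ZMod (Nat.card F)) = 1 := by
  haveI : Nontrivial W := Submodule.nontrivial_iff_ne_bot.2 hW
  rw [card_pts_eq]
  exact card_proj_mod

end Cfsg.Agent.Helper20.ProjCount
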