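import Mathlib
import Cfsg.Prelude.Def_RootSubgroups
import Cfsg.Agent.Helper25.RootSets3
import Cfsg.Agent.S5028

set_option autoImplicit false

namespace Cfsg.Agent.Helper20.S5029d

open Cfsg Cfsg.Agent.Helper25
open scoped commutatorElement

variable {G : Type*} [Group G]

theorem conj_comm_le {A B : Subgroup G} : ∀ a' ∈ A, ⁅A, B⁆ ≤ conjBy ⁅A, B⁆ a'⁻¹ := by
  intro a' ha'
  rw [Subgroup.commutator_le]
  intro a ha b hb
  rw [mem_conjBy, inv_inv]
  have h1 : a' * ⁅a, b⁆ * a'⁻¹ = ⁅a' * a, b⁆ * ⁅a', b⁆⁻¹ := by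
    simp only [commutatorElement_def]; group
  rw [h1]
  exact Subgroup.mul_mem _ (Subgroup.commutator_mem_commutator (A.mul_mem ha' ha) hb)
    (Subgroup.inv_mem _ (Subgroup.commutator_mem_commutator ha' hb))

theorem conjBy_comm_eq {A B : Subgroup G} {a : G} (ha : a ∈ A) : conjBy ⁅A, B⁆ a = ⁅A, B⁆ := by
  apply le_antisymm
  · have h1 := conjBy_mono (conj_comm_le (B := B) a ha) a
    rw [conjBy_conjBy, mul_inv_cancel, conjBy_one] at h1
    exact h1
  · have h1 := conj_comm_le (B := B) a⁻¹ (A.inv_mem ha)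
    rw [inv_inv] at h1
    exact h1

theorem aux {S : Set (Subgroup G)} (hS : IsRootSubgroupSet S) {A B : Subgroup G} (hAS : A ∈ S)
    (hB : B ∈ S) (hC : ⁅A, B⁆ ∈ S) (h : IsRankOnePair A B) (hAC : ⁅A, ⁅A, B⁆⁆ ≠ ⊥) : False := by
  obtain ⟨a₀, ha₀, ha₀1⟩ := IsRankOnePair.exists_ne_one_left h
  obtain ⟨b₁, hb₁, hb₁1⟩ := IsRankOnePair.exists_ne_one_right h
  rcases hS.pair A hAS _ hC with h0 | h1 | hcc
  · exact hAC h0
  · exact ha₀1 (IsRankOnePair.eq_one_of_normalizes_right h1 ha₀ (conjBy_comm_eq ha₀))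
  · obtain ⟨hC₁S, hcen, hgen, -⟩ := hcc
    have hBle : B ≤ A ⊔ ⁅A, B⁆ := by
      obtain ⟨b₀, hb₀, -, hconj⟩ := h.cond_left a₀ ha₀ ha₀1
      intro b' hb'
      have h1 : a₀⁻¹ * b' * a₀ ∈ conjBy B a₀⁻¹ := by
        have := conj_mem_conjBy (g := a₀⁻¹) hb'
        rwa [inv_inv] at this
      rw [← hconj, mem_conjBy, inv_inv] at h1
      obtain ⟨a', ha'def⟩ : ∃ a', a' = b₀ * (a₀⁻¹ * b' * a₀) * b₀⁻¹ := ⟨_, rfl⟩
      rw [← ha'def] at h1
      have h2 : b' = (a₀ * ⁅b₀⁻¹, a'⁆ * a₀⁻¹) * (a₀ * a' * a₀⁻¹) := by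
        rw [ha'def]; simp only [commutatorElement_def]; group
      rw [h2]
      apply Subgroup.mul_mem
      · apply (le_sup_right : ⁅A, B⁆ ≤ A ⊔ ⁅A, B⁆)
        have h3 : ⁅b₀⁻¹, a'⁆ ∈ ⁅A, B⁆ := by
          rw [Subgroup.commutator_comm A B]
          exact Subgroup.commutator_mem_commutator (B.inv_mem hb₀) h1
        have h4 := conj_mem_conjBy (g := a₀) h3
        rwa [conjBy_comm_eq ha₀] at h4
      · apply (le_sup_left : A ≤ A ⊔ ⁅A, B⁆)
        exact A.mul_mem (A.mul_mem ha₀ h1) (A.inv_mem ha₀)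
    have hABle : A ⊔ B ≤ A ⊔ ⁅A, B⁆ := sup_le le_sup_left hBle
    obtain ⟨c, hc, hc1⟩ : ∃ c ∈ ⁅A, B⁆, a₀ * c * a₀⁻¹ * c⁻¹ ≠ 1 := by
      by_contra hcon
      have hcon' : ∀ x ∈ ((⁅A, B⁆ : Subgroup G) : Set G), (fun b : G => a₀ * b * a₀⁻¹ * b⁻¹) x = 1 := by
        intro x hx
        by_contra hx1
        exact hcon ⟨x, hx, hx1⟩
      have e := closure_image_eq_bot (fun b : G => a₀ * b * a₀⁻¹ * b⁻¹) hcon'
      have := hgen a₀ ha₀ ha₀1
      exact hAC (this.symm.trans e)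
    obtain ⟨z, hzdef⟩ : ∃ z, z = c * a₀ * c⁻¹ * a₀⁻¹ := ⟨_, rfl⟩
    have hzC₁ : z ∈ ⁅A, ⁅A, B⁆⁆ := by
      rw [Subgroup.commutator_comm A ⁅A, B⁆, hzdef]
      exact Subgroup.commutator_mem_commutator hc ha₀
    have hz1 : z ≠ 1 := by
      intro hz
      apply hc1
      have h5 : a₀ * c * a₀⁻¹ * c⁻¹ = z⁻¹ := by rw [hzdef]; group
      rw [h5, hz, inv_one]
    have hzcent : z ∈ Subgroup.centralizer ((A ⊔ B : Subgroup G) : Set G) := by
      rw [Subgroup.mem_centralizer_iff]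
      intro x hx
      exact (hcen z hzC₁ x (hABle hx)).symm
    have hza : z * a₀ ∈ conjBy A c := by
      have h5 : z * a₀ = c * a₀ * c⁻¹ := by rw [hzdef]; group
      rw [h5]
      exact conj_mem_conjBy ha₀
    have hAc : conjBy A c = A :=
      root_key hS hAS hB h (hS.conj_mem A hAS c) hzcent ha₀ ha₀1 hza
    have hzA : z ∈ A := by
      have h5 : c * a₀ * c⁻¹ ∈ conjBy A c := conj_mem_conjBy ha₀
      rw [hAc] at h5
      rw [hzdef]
      exact A.mul_mem h5 (A.inv_mem ha₀)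
    have hzb : z * b₁ = b₁ * z := hcen z hzC₁ b₁ (hBle hb₁)
    exact IsRankOnePair.not_commute_elements h hzA hz1 hb₁ hb₁1 hzb

/-- [d] If `⁅A, B⁆ ∈ S` then `(A, B)` is not a rank one pair. -/
theorem not_rank_one {S : Set (Subgroup G)} (hS : IsRootSubgroupSet S) {A B : Subgroup G}
    (hAS : A ∈ S) (hB : B ∈ S) (hC : ⁅A, B⁆ ∈ S) : ¬ IsRankOnePair A B := by
  intro h
  by_cases h1 : ⁅A, ⁅A, B⁆⁆ = ⊥
  · by_cases h2 : ⁅B, ⁅A, B⁆⁆ = ⊥
    · obtain ⟨a, ha, ha1⟩ := IsRankOnePair.exists_ne_one_left h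
      obtain ⟨b, hb, hb1⟩ := IsRankOnePair.exists_ne_one_right h
      have hAC := comm_of_commutator_eq_bot h1
      have hBC := comm_of_commutator_eq_bot h2
      obtain ⟨z, hzdef⟩ : ∃ z, z = b * a * b⁻¹ * a⁻¹ := ⟨_, rfl⟩
      have hzC : z ∈ ⁅A, B⁆ := by
        rw [Subgroup.commutator_comm A B, hzdef]
        exact Subgroup.commutator_mem_commutator hb ha
      have hzcent : z ∈ Subgroup.centralizer ((A ⊔ B : Subgroup G) : Set G) := by
        have hle : A ⊔ B ≤ Subgroup.centralizer ({z} : Set G) := by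
          apply sup_le
          · intro x hx
            rw [Subgroup.mem_centralizer_iff]
            intro y hy
            rw [Set.mem_singleton_iff] at hy
            rw [hy]
            exact (hAC x hx z hzC).symm
          · intro x hx
            rw [Subgroup.mem_centralizer_iff]
            intro y hy
            rw [Set.mem_singleton_iff] at hy
            rw [hy]
            exact (hBC x hx z hzC).symm
        rw [Subgroup.mem_centralizer_iff]
        intro x hx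
        exact (Subgroup.mem_centralizer_iff.mp (hle hx) z (Set.mem_singleton z)).symm
      have hza : z * a ∈ conjBy A b := by
        have h3 : z * a = b * a * b⁻¹ := by rw [hzdef]; group
        rw [h3]
        exact conj_mem_conjBy ha
      have hAb : conjBy A b = A :=
        root_key hS hAS hB h (hS.conj_mem A hAS b) hzcent ha ha1 hza
      exact hb1 (IsRankOnePair.eq_one_of_normalizes_left h hb hAb)
    · have hC' : ⁅B, A⁆ ∈ S := by
        rw [Subgroup.commutator_comm B A]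
        exact hC
      apply aux hS hB hAS hC' (RankOnePair_symm h)
      rw [Subgroup.commutator_comm B A]
      exact h2
  · exact aux hS hAS hB hC h h1

end Cfsg.Agent.Helper20.S5029d
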