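import Mathlib
import Cfsg.Prelude.Def_KGroupFacts

set_option autoImplicit false

/-!
Helper lemmas (seat helper20) on `Cfsg.HasSchurMultiplier` for groups with a cyclic subgroup of
index at most two that is inverted by an element outside it (dihedral and dicyclic groups).
-/

namespace Cfsg.Agent.Helper20

universe u v

open Cfsg

/-- If every finite stem extension of the finite group `G` has trivial kernel, then `G` has trivial
Schur multiplier. -/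
theorem hasCyclicSchurMultiplier_one_of_forall_ker_eq_bot {G : Type u} [Group G] [Finite G]
    (h : ∀ (Γ : Type u) [Group Γ] [Finite Γ] (σ : Γ →* G), IsStemExtension σ → σ.ker = ⊥) :
    HasCyclicSchurMultiplier G 1 := by
  refine ⟨⟨G, inferInstance, inferInstance, MonoidHom.id G, ⟨Function.surjective_id, ?_, ?_⟩, ?_⟩, ?_⟩
  · rw [MonoidHom.ker_id]; exact bot_le
  · rw [MonoidHom.ker_id]; exact bot_le
  · have hu : Unique (MonoidHom.id G).ker := by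
      rw [MonoidHom.ker_id]; infer_instance
    exact ⟨MulEquiv.ofUnique⟩
  · intro Γ _ _ σ hσ
    refine ⟨1, ?_⟩
    intro x
    refine ⟨1, ?_⟩
    have hx : (x : Γ) ∈ (⊥ : Subgroup Γ) := (h Γ σ hσ) ▸ x.2
    rw [Subgroup.mem_bot] at hx
    exact Subtype.ext (by simpa using hx.symm)

/-- If some finite stem extension of `G` has a kernel with two elements and every finite stem
extension has a kernel with at most two elements, then the Schur multiplier of `G` is cyclic of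
order two. -/
theorem hasCyclicSchurMultiplier_two {G : Type u} [Group G]
    (hex : ∃ (Γ : Type u) (_ : Group Γ) (_ : Finite Γ) (σ : Γ →* G),
      IsStemExtension σ ∧ Nat.card σ.ker = 2)
    (hall : ∀ (Γ : Type u) [Group Γ] [Finite Γ] (σ : Γ →* G), IsStemExtension σ →
      Nat.card σ.ker ≤ 2) :
    HasCyclicSchurMultiplier G 2 := by
  have hc2 : Nat.card (Multiplicative (ZMod 2)) = 2 := by
    rw [Nat.card_eq_fintype_card]; rfl
  obtain ⟨Γ, iG, iF, σ, hσ, hcard⟩ := hex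
  refine ⟨⟨Γ, iG, iF, σ, hσ, ⟨mulEquivOfPrimeCardEq (p := 2) hcard hc2⟩⟩, ?_⟩
  intro Γ' _ _ σ' hσ'
  have hle := hall Γ' σ' hσ'
  have hpos : 0 < Nat.card σ'.ker := Nat.card_pos
  have h12 : Nat.card σ'.ker = 1 ∨ Nat.card σ'.ker = 2 := by omega
  rcases h12 with h1 | h2
  · refine ⟨1, ?_⟩
    intro x
    refine ⟨1, ?_⟩
    have : Subsingleton σ'.ker := (Nat.card_eq_one_iff_unique.mp h1).1
    exact Subsingleton.elim _ _
  · exact ⟨(mulEquivOfPrimeCardEq (p := 2) hc2 h2).toMonoidHom,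
      (mulEquivOfPrimeCardEq (p := 2) hc2 h2).surjective⟩

/-- Elements of the kernel of a central extension with the same image give the same commutator
with a fixed element. -/
theorem comm_eq_of_map_eq {Γ : Type u} {Q : Type v} [Group Γ] [Group Q] (σ : Γ →* Q)
    (hker : σ.ker ≤ Subgroup.center Γ) (τ b b' : Γ) (h : σ b = σ b') :
    τ * b * τ⁻¹ * b⁻¹ = τ * b' * τ⁻¹ * b'⁻¹ := by
  have hz : b⁻¹ * b' ∈ Subgroup.center Γ := by
    apply hker
    rw [MonoidHom.mem_ker, map_mul, map_inv, h, inv_mul_cancel]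
  have hc := Subgroup.mem_center_iff.mp hz
  have hb' : b' = b * (b⁻¹ * b') := by group
  rw [hb']
  set z := b⁻¹ * b' with hzdef
  calc τ * b * τ⁻¹ * b⁻¹ = τ * b * τ⁻¹ * (z * z⁻¹) * b⁻¹ := by group
    _ = τ * b * (τ⁻¹ * z) * z⁻¹ * b⁻¹ := by group
    _ = τ * b * (z * τ⁻¹) * z⁻¹ * b⁻¹ := by rw [hc τ⁻¹]
    _ = τ * (b * z) * τ⁻¹ * (b * z)⁻¹ := by group

/-- Key lemma.  Let `σ : Γ →* Q` be a stem extension, and let `c, t ∈ Q` be such that every element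
of `Q` lies in `⟨c⟩` or in `⟨c⟩ t`, and `t` inverts `c`.  Fix a preimage `τ` of `t`.  Then every
element `z` of the kernel of `σ` is of the form `τ b τ⁻¹ b⁻¹` with `σ b ∈ ⟨c⟩` and `(σ b)² = 1`. -/
theorem ker_eq_comm {Γ : Type u} {Q : Type v} [Group Γ] [Group Q] (σ : Γ →* Q)
    (hσ : IsStemExtension σ) (c t : Q)
    (H1 : ∀ q : Q, q ∈ Subgroup.zpowers c ∨ q * t⁻¹ ∈ Subgroup.zpowers c)
    (H2 : t * c * t⁻¹ = c⁻¹) (τ : Γ) (hτ : σ τ = t) :
    ∀ z ∈ σ.ker, ∃ b : Γ, σ b ∈ Subgroup.zpowers c ∧ (σ b) ^ 2 = 1 ∧ z = τ * b * τ⁻¹ * b⁻¹ := by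
  obtain ⟨hsurj, hcent, hcomm⟩ := hσ
  obtain ⟨γ, hγ⟩ := hsurj c
  set A : Subgroup Γ := (Subgroup.zpowers c).comap σ with hA
  -- conjugation by `t` inverts `⟨c⟩`
  have hconj : ∀ q ∈ Subgroup.zpowers c, t * q * t⁻¹ = q⁻¹ := by
    intro q hq
    obtain ⟨i, rfl⟩ := Subgroup.mem_zpowers_iff.mp hq
    rw [← conj_zpow, H2, inv_zpow]
  -- `A` is commutative
  have hAcomm : ∀ a ∈ A, ∀ b ∈ A, a * b = b * a := by
    intro a ha b hb
    obtain ⟨i, hi⟩ := Subgroup.mem_zpowers_iff.mp (Subgroup.mem_comap.mp ha)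
    obtain ⟨j, hj⟩ := Subgroup.mem_zpowers_iff.mp (Subgroup.mem_comap.mp hb)
    have hz : a * (γ ^ i)⁻¹ ∈ Subgroup.center Γ := by
      apply hcent
      rw [MonoidHom.mem_ker, map_mul, map_inv, map_zpow, hγ, hi, mul_inv_cancel]
    have hw : b * (γ ^ j)⁻¹ ∈ Subgroup.center Γ := by
      apply hcent
      rw [MonoidHom.mem_ker, map_mul, map_inv, map_zpow, hγ, hj, mul_inv_cancel]
    have hzc : ∀ g : Γ, Commute (a * (γ ^ i)⁻¹) g := fun g =>
      (Subgroup.mem_center_iff.mp hz g).symm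
    have hwc : ∀ g : Γ, Commute (b * (γ ^ j)⁻¹) g := fun g =>
      (Subgroup.mem_center_iff.mp hw g).symm
    have ha' : a = a * (γ ^ i)⁻¹ * γ ^ i := by group
    have hb' : b = b * (γ ^ j)⁻¹ * γ ^ j := by group
    have hgg : Commute (γ ^ i) (γ ^ j) := (Commute.refl γ).zpow_zpow i j
    have : Commute (a * (γ ^ i)⁻¹ * γ ^ i) (b * (γ ^ j)⁻¹ * γ ^ j) := by
      apply Commute.mul_left
      · exact hzc _
      · apply Commute.mul_right
        · exact (hwc _).symm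
        · exact hgg
    rw [ha', hb']
    exact this
  -- `A` is normalized by `τ`
  have hAnorm : ∀ b ∈ A, τ * b * τ⁻¹ ∈ A := by
    intro b hb
    rw [hA, Subgroup.mem_comap] at hb ⊢
    rw [map_mul, map_mul, map_inv, hτ, hconj _ hb]
    exact inv_mem hb
  -- every element is in `A` or in `A τ`
  have hcover : ∀ x : Γ, x ∈ A ∨ x * τ⁻¹ ∈ A := by
    intro x
    rcases H1 (σ x) with h | h
    · left; exact Subgroup.mem_comap.mpr h
    · right; rw [hA, Subgroup.mem_comap, map_mul, map_inv, hτ]; exact h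
  -- the subgroup of commutators `[τ, b]`, `b ∈ A`
  let B : Subgroup Γ :=
    { carrier := {x | ∃ b ∈ A, x = τ * b * τ⁻¹ * b⁻¹}
      mul_mem' := by
        rintro x y ⟨b, hb, rfl⟩ ⟨b', hb', rfl⟩
        refine ⟨b * b', mul_mem hb hb', ?_⟩
        have h1 := hAcomm _ (inv_mem hb) _ (hAnorm b' hb')
        have h2 := hAcomm _ (inv_mem hb) _ (inv_mem hb')
        calc τ * b * τ⁻¹ * b⁻¹ * (τ * b' * τ⁻¹ * b'⁻¹)
            = τ * b * τ⁻¹ * (b⁻¹ * (τ * b' * τ⁻¹)) * b'⁻¹ := by group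
          _ = τ * b * τ⁻¹ * ((τ * b' * τ⁻¹) * b⁻¹) * b'⁻¹ := by rw [h1]
          _ = τ * (b * b') * τ⁻¹ * (b⁻¹ * b'⁻¹) := by group
          _ = τ * (b * b') * τ⁻¹ * (b'⁻¹ * b⁻¹) := by rw [h2]
          _ = τ * (b * b') * τ⁻¹ * (b * b')⁻¹ := by group
      one_mem' := ⟨1, one_mem _, by group⟩
      inv_mem' := by
        rintro x ⟨b, hb, rfl⟩
        refine ⟨b⁻¹, inv_mem hb, ?_⟩
        have h1 := hAcomm _ hb _ (hAnorm _ (inv_mem hb))
        calc (τ * b * τ⁻¹ * b⁻¹)⁻¹ = b * (τ * b⁻¹ * τ⁻¹) := by group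
          _ = (τ * b⁻¹ * τ⁻¹) * b := h1
          _ = τ * b⁻¹ * τ⁻¹ * b⁻¹⁻¹ := by group }
  have hB : ∀ x : Γ, x ∈ B ↔ ∃ b ∈ A, x = τ * b * τ⁻¹ * b⁻¹ := fun x => Iff.rfl
  have hcommB : commutator Γ ≤ B := by
    rw [commutator_def, Subgroup.commutator_le]
    intro x _ y _
    rw [commutatorElement_def]
    rcases hcover x with hx | hx <;> rcases hcover y with hy | hy
    · have h := hAcomm x hx y hy
      have : x * y * x⁻¹ * y⁻¹ = 1 := by
        calc x * y * x⁻¹ * y⁻¹ = (x * y) * x⁻¹ * y⁻¹ := by group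
          _ = (y * x) * x⁻¹ * y⁻¹ := by rw [h]
          _ = 1 := by group
      rw [this]; exact one_mem B
    · -- x ∈ A, y = b τ
      rw [hB]
      refine ⟨x⁻¹, inv_mem hx, ?_⟩
      have h1 := hAcomm _ hy _ (hAnorm _ (inv_mem hx))
      have h2 := hAcomm _ hx _ (hAnorm _ (inv_mem hx))
      calc x * y * x⁻¹ * y⁻¹ = x * ((y * τ⁻¹) * (τ * x⁻¹ * τ⁻¹)) * (y * τ⁻¹)⁻¹ := by group
        _ = x * ((τ * x⁻¹ * τ⁻¹) * (y * τ⁻¹)) * (y * τ⁻¹)⁻¹ := by rw [h1]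
        _ = x * (τ * x⁻¹ * τ⁻¹) := by group
        _ = (τ * x⁻¹ * τ⁻¹) * x := h2
        _ = τ * x⁻¹ * τ⁻¹ * x⁻¹⁻¹ := by group
    · -- x = a τ, y ∈ A
      rw [hB]
      refine ⟨y, hy, ?_⟩
      have h1 := hAcomm _ hx _ (hAnorm _ hy)
      calc x * y * x⁻¹ * y⁻¹ = ((x * τ⁻¹) * (τ * y * τ⁻¹)) * (x * τ⁻¹)⁻¹ * y⁻¹ := by group
        _ = ((τ * y * τ⁻¹) * (x * τ⁻¹)) * (x * τ⁻¹)⁻¹ * y⁻¹ := by rw [h1]
        _ = τ * y * τ⁻¹ * y⁻¹ := by group
    · -- x = a τ, y = b τ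
      rw [hB]
      refine ⟨(y * τ⁻¹) * (x * τ⁻¹)⁻¹, mul_mem hy (inv_mem hx), ?_⟩
      have h1 := hAcomm _ hx _ (hAnorm _ (mul_mem hy (inv_mem hx)))
      calc x * y * x⁻¹ * y⁻¹
          = ((x * τ⁻¹) * (τ * ((y * τ⁻¹) * (x * τ⁻¹)⁻¹) * τ⁻¹)) * (y * τ⁻¹)⁻¹ := by group
        _ = ((τ * ((y * τ⁻¹) * (x * τ⁻¹)⁻¹) * τ⁻¹) * (x * τ⁻¹)) * (y * τ⁻¹)⁻¹ := by rw [h1]
        _ = τ * ((y * τ⁻¹) * (x * τ⁻¹)⁻¹) * τ⁻¹ * ((y * τ⁻¹) * (x * τ⁻¹)⁻¹)⁻¹ := by group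
  intro z hz
  obtain ⟨b, hb, hzb⟩ := (hB z).mp (hcommB (hcomm hz))
  refine ⟨b, Subgroup.mem_comap.mp hb, ?_, hzb⟩
  have h1 : σ z = 1 := MonoidHom.mem_ker.mp hz
  rw [hzb, map_mul, map_mul, map_mul, map_inv, map_inv, hτ, hconj _ (Subgroup.mem_comap.mp hb)] at h1
  have : (σ b) ^ 2 = ((σ b)⁻¹ * (σ b)⁻¹)⁻¹ := by group
  rw [this, h1, inv_one]

end Cfsg.Agent.Helper20
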