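import Mathlib
import Cfsg.Prelude.Def_KGroupFacts

set_option autoImplicit false

/-!
Helper lemmas (seat helper20): central extensions of abelian groups built from biadditive maps
(Heisenberg-type groups), and homomorphisms from `Multiplicative (ZMod n)`.
-/

namespace Cfsg.Agent.Helper20

universe u

open Cfsg
open scoped commutatorElement

/-- The central extension of `A` by `C` attached to a biadditive map `β`, as a type. -/
def CExt (A C : Type u) [AddCommGroup A] [AddCommGroup C] (_β : A →+ A →+ C) : Type u := A × C

namespace CExt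

variable {A C : Type u} [AddCommGroup A] [AddCommGroup C] (β : A →+ A →+ C)

/-- constructor -/
def mk (a : A) (c : C) : CExt A C β := (a, c)

/-- first projection -/
def fst (x : CExt A C β) : A := Prod.fst x

/-- second projection -/
def snd (x : CExt A C β) : C := Prod.snd x

@[ext] theorem ext' {x y : CExt A C β} (h1 : fst β x = fst β y) (h2 : snd β x = snd β y) : x = y :=
  Prod.ext h1 h2

@[simp] theorem fst_mk (a : A) (c : C) : fst β (mk β a c) = a := rfl
@[simp] theorem snd_mk (a : A) (c : C) : snd β (mk β a c) = c := rfl

instance instGroupCExt : Group (CExt A C β) where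
  mul x y := mk β (fst β x + fst β y) (snd β x + snd β y + β (fst β x) (fst β y))
  one := mk β 0 0
  inv x := mk β (-fst β x) (-snd β x + β (fst β x) (fst β x))
  mul_assoc x y z := by
    apply ext'
    · show fst β x + fst β y + fst β z = fst β x + (fst β y + fst β z)
      abel
    · show snd β x + snd β y + β (fst β x) (fst β y) + snd β z + β (fst β x + fst β y) (fst β z)
        = snd β x + (snd β y + snd β z + β (fst β y) (fst β z)) + β (fst β x) (fst β y + fst β z)
      rw [map_add, map_add, AddMonoidHom.add_apply]
      abel
  one_mul x := by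
    apply ext'
    · show (0 : A) + fst β x = fst β x
      abel
    · show (0 : C) + snd β x + β 0 (fst β x) = snd β x
      rw [map_zero, AddMonoidHom.zero_apply]
      abel
  mul_one x := by
    apply ext'
    · show fst β x + (0 : A) = fst β x
      abel
    · show snd β x + (0 : C) + β (fst β x) 0 = snd β x
      rw [map_zero]
      abel
  inv_mul_cancel x := by
    apply ext'
    · show -fst β x + fst β x = 0
      abel
    · show -snd β x + β (fst β x) (fst β x) + snd β x + β (-fst β x) (fst β x) = 0
      rw [map_neg, AddMonoidHom.neg_apply]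
      abel

theorem fst_mul (x y : CExt A C β) : fst β (x * y) = fst β x + fst β y := rfl
theorem snd_mul (x y : CExt A C β) :
    snd β (x * y) = snd β x + snd β y + β (fst β x) (fst β y) := rfl
theorem fst_one : fst β (1 : CExt A C β) = 0 := rfl
theorem snd_one : snd β (1 : CExt A C β) = 0 := rfl
theorem fst_inv (x : CExt A C β) : fst β x⁻¹ = -fst β x := rfl
theorem snd_inv (x : CExt A C β) : snd β x⁻¹ = -snd β x + β (fst β x) (fst β x) := rfl

instance instFiniteCExt [Finite A] [Finite C] : Finite (CExt A C β) :=
  inferInstanceAs (Finite (A × C))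

/-- The projection to `A`. -/
def proj : CExt A C β →* Multiplicative A where
  toFun x := Multiplicative.ofAdd (fst β x)
  map_one' := rfl
  map_mul' _ _ := rfl

theorem proj_apply (x : CExt A C β) : proj β x = Multiplicative.ofAdd (fst β x) := rfl

theorem proj_surjective : Function.Surjective (proj β) := fun a =>
  ⟨mk β (Multiplicative.toAdd a) 0, rfl⟩

theorem mem_ker_proj (x : CExt A C β) : x ∈ (proj β).ker ↔ fst β x = 0 := by
  rw [MonoidHom.mem_ker, proj_apply]
  exact Iff.rfl

/-- The inclusion of `C`. -/
def incl : Multiplicative C →* CExt A C β where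
  toFun c := mk β 0 (Multiplicative.toAdd c)
  map_one' := rfl
  map_mul' c d := by
    apply ext'
    · show (0 : A) = 0 + 0
      abel
    · show Multiplicative.toAdd (c * d) = Multiplicative.toAdd c + Multiplicative.toAdd d + β 0 0
      rw [map_zero, toAdd_mul]
      abel

theorem incl_injective : Function.Injective (incl β) := by
  intro c d h
  have := congrArg (snd β) h
  exact this

theorem range_incl : (incl β).range = (proj β).ker := by
  ext x
  rw [mem_ker_proj]
  constructor
  · rintro ⟨c, rfl⟩
    rfl
  · intro h
    refine ⟨Multiplicative.ofAdd (snd β x), ?_⟩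
    apply ext'
    · exact h.symm
    · rfl

/-- The kernel of the projection is isomorphic to `C`. -/
noncomputable def kerEquiv : (proj β).ker ≃* Multiplicative C :=
  ((MonoidHom.ofInjective (incl_injective β)).trans
    (MulEquiv.subgroupCongr (range_incl β))).symm

theorem ker_le_center : (proj β).ker ≤ Subgroup.center (CExt A C β) := by
  intro x hx
  rw [mem_ker_proj] at hx
  rw [Subgroup.mem_center_iff]
  intro y
  apply ext'
  · rw [fst_mul, fst_mul, add_comm]
  · rw [snd_mul, snd_mul, hx, map_zero, map_zero, AddMonoidHom.zero_apply]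
    abel

theorem commutator_eq (x y : CExt A C β) :
    ⁅x, y⁆ = mk β 0 (β (fst β x) (fst β y) - β (fst β y) (fst β x)) := by
  rw [commutatorElement_def]
  have h : x * y = mk β 0 (β (fst β x) (fst β y) - β (fst β y) (fst β x)) * (y * x) := by
    apply ext'
    · rw [fst_mul, fst_mul, fst_mul, fst_mk]
      abel
    · rw [snd_mul, snd_mul, snd_mul, fst_mk, snd_mk, map_zero, AddMonoidHom.zero_apply]
      abel
  calc x * y * x⁻¹ * y⁻¹ = (x * y) * (y * x)⁻¹ := by group
    _ = mk β 0 (β (fst β x) (fst β y) - β (fst β y) (fst β x)) := by rw [h]; group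

/-- The projection is a stem extension as soon as the antisymmetrized values of `β` generate `C`. -/
theorem isStemExtension_proj
    (hgen : AddSubgroup.closure (Set.range fun p : A × A => β p.1 p.2 - β p.2 p.1) = ⊤) :
    IsStemExtension (proj β) := by
  refine ⟨proj_surjective β, ker_le_center β, ?_⟩
  rw [← range_incl]
  rintro _ ⟨c, rfl⟩
  have hc : Multiplicative.toAdd c ∈ AddSubgroup.closure (Set.range fun p : A × A => β p.1 p.2 - β p.2 p.1) := by
    rw [hgen]; trivial
  have key : ∀ d : C, d ∈ AddSubgroup.closure (Set.range fun p : A × A => β p.1 p.2 - β p.2 p.1) →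
      incl β (Multiplicative.ofAdd d) ∈ commutator (CExt A C β) := by
    intro d hd
    induction hd using AddSubgroup.closure_induction with
    | mem d hd =>
      obtain ⟨p, rfl⟩ := hd
      have : incl β (Multiplicative.ofAdd (β p.1 p.2 - β p.2 p.1)) = ⁅mk β p.1 0, mk β p.2 0⁆ := by
        rw [commutator_eq]; rfl
      rw [this, commutator_def]
      exact Subgroup.commutator_mem_commutator (Subgroup.mem_top _) (Subgroup.mem_top _)
    | zero => exact one_mem _
    | add d d' _ _ hd hd' =>
      rw [ofAdd_add, map_mul]
      exact mul_mem hd hd'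
    | neg d _ hd =>
      rw [ofAdd_neg, map_inv]
      exact inv_mem hd
  exact key _ hc

end CExt

/-- A subgroup generated by an element `w` with `w ^ n = 1` is a homomorphic image of
`Multiplicative (ZMod n)`. -/
theorem exists_surjective_of_le_zpowers {Γ : Type u} [Group Γ] (K : Subgroup Γ) (w : Γ) (hw : w ∈ K)
    (hK : K ≤ Subgroup.zpowers w) (n : ℕ) (hn : w ^ n = 1) :
    ∃ π : Multiplicative (ZMod n) →* K, Function.Surjective π := by
  let w' : K := ⟨w, hw⟩
  have hw'n : w' ^ n = 1 := Subtype.ext (by simpa using hn)
  let f₀ : ℤ →+ Additive K := zmultiplesHom (Additive K) (Additive.ofMul w')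
  have hf₀ : f₀ n = 0 := by
    show (n : ℤ) • Additive.ofMul w' = 0
    rw [natCast_zsmul, ← ofMul_pow, hw'n]
    rfl
  let f : ZMod n →+ Additive K := ZMod.lift n ⟨f₀, hf₀⟩
  refine ⟨AddMonoidHom.toMultiplicative f, ?_⟩
  intro x
  obtain ⟨k, hk⟩ := Subgroup.mem_zpowers_iff.mp (hK x.2)
  refine ⟨Multiplicative.ofAdd (k : ZMod n), ?_⟩
  show Additive.toMul (f (k : ZMod n)) = x
  rw [ZMod.lift_coe]
  show Additive.toMul (k • Additive.ofMul w') = x
  apply Subtype.ext
  rw [← ofMul_zpow]
  simpa using hk

end Cfsg.Agent.Helper20
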