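import Mathlib
import Cfsg.Agent.Helper20.SpGen2

/-!
# Symplectic groups: the calculus of transvection centres along hyperbolic planes
-/

set_option autoImplicit false

namespace Cfsg.Agent.Helper20.SpGen

open Matrix

variable {F : Type*} [Field F] {n : ℕ}

theorem tg_form_add_left (u u' v : VV n F) :
    Cfsg.sympForm n F (u + u') v = Cfsg.sympForm n F u v + Cfsg.sympForm n F u' v := by
  unfold Cfsg.sympForm
  rw [add_dotProduct]

theorem tg_form_add_right (u v v' : VV n F) :
    Cfsg.sympForm n F u (v + v') = Cfsg.sympForm n F u v + Cfsg.sympForm n F u v' := by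
  unfold Cfsg.sympForm
  rw [Matrix.mulVec_add, dotProduct_add]

theorem tg_form_sub_right (u v v' : VV n F) :
    Cfsg.sympForm n F u (v - v') = Cfsg.sympForm n F u v - Cfsg.sympForm n F u v' := by
  unfold Cfsg.sympForm
  rw [Matrix.mulVec_sub, dotProduct_sub]

theorem tg_split (v : VV n F) : v = Sum.elim (fun i => v (Sum.inl i)) (fun i => v (Sum.inr i)) := by
  ext (i | i) <;> rfl

theorem tg_form_self (u : VV n F) : Cfsg.sympForm n F u u = 0 := by
  rw [tg_split u, form_elim, dotProduct_comm, sub_self]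

theorem tg_form_swap (u v : VV n F) : Cfsg.sympForm n F u v = -Cfsg.sympForm n F v u := by
  rw [tg_split u, tg_split v, form_elim, form_elim, dotProduct_comm, neg_sub]
  congr 1
  exact dotProduct_comm _ _

theorem tg_zero (K : Subgroup (SpG n F)) : (0 : VV n F) ∈ AA K := by
  intro c
  have e : tvS n (0 : VV n F) c = 1 := by
    apply Subtype.ext
    show Cfsg.sympTransvection n (0 : VV n F) c = 1
    unfold Cfsg.sympTransvection
    simp
  rw [e]
  exact K.one_mem

theorem tg_add {K : Subgroup (SpG n F)} {v w : VV n F} (hv : v ∈ AA K) (hw : w ∈ AA K)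
    (h : Cfsg.sympForm n F v w ≠ 0) (c : F) : v + c • w ∈ AA K := by
  have h1 := AA_tv hv hw (c * (Cfsg.sympForm n F v w)⁻¹)
  rwa [mul_assoc, inv_mul_cancel₀ h, mul_one] at h1

/-- a vector of the `j`-th hyperbolic plane -/
def pv (j : Fin n) (α β : F) : VV n F := Sum.elim (Pi.single j α) (Pi.single j β)

theorem pv_add (j : Fin n) (α β α' β' : F) : pv j α β + pv j α' β' = pv j (α + α') (β + β') := by
  unfold pv
  rw [elim_add, ← Pi.single_add, ← Pi.single_add]

theorem pv_smul (j : Fin n) (c α β : F) : c • pv j α β = pv j (c * α) (c * β) := by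
  unfold pv
  rw [elim_smul, ← Pi.single_smul, ← Pi.single_smul, smul_eq_mul, smul_eq_mul]

theorem pv_form (j : Fin n) (α β α' β' : F) :
    Cfsg.sympForm n F (pv j α β) (pv j α' β') = β * α' - α * β' := by
  unfold pv
  rw [form_elim, single_dotProduct, single_dotProduct, Pi.single_eq_same, Pi.single_eq_same]

theorem pv_form_left (j : Fin n) (α β : F) (u : VV n F) :
    Cfsg.sympForm n F u (pv j α β) = u (Sum.inr j) * α - u (Sum.inl j) * β := by
  unfold pv
  rw [tg_split u, form_elim, dotProduct_single, dotProduct_single]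
  simp only [Sum.elim_inl, Sum.elim_inr]

/-- two non-orthogonal centres in a hyperbolic plane give the whole plane -/
theorem tg_plane {K : Subgroup (SpG n F)} (j : Fin n) (α₁ β₁ α₂ β₂ : F)
    (h1 : pv j α₁ β₁ ∈ AA K) (h2 : pv j α₂ β₂ ∈ AA K) (hd : α₁ * β₂ - α₂ * β₁ ≠ 0) (α β : F) :
    pv j α β ∈ AA K := by
  have hf : Cfsg.sympForm n F (pv j α₁ β₁) (pv j α₂ β₂) ≠ 0 := by
    rw [pv_form]
    intro h
    apply hd
    linear_combination (-1 : F) * h
  obtain ⟨D, hD⟩ : ∃ D : F, (α₁ * β₂ - α₂ * β₁) * D = 1 := ⟨_, mul_inv_cancel₀ hd⟩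
  by_cases ha : α * β₂ - α₂ * β = 0
  · have e : pv j α β = ((α₁ * β - α * β₁) * D) • pv j α₂ β₂ := by
      rw [pv_smul]
      congr 1
      · linear_combination (-α) * hD + D * α₁ * ha
      · linear_combination (-β) * hD + D * β₁ * ha
    rw [e]
    exact AA_smul h2 _
  · obtain ⟨A, hA⟩ : ∃ A : F, (α * β₂ - α₂ * β) * A = 1 := ⟨_, mul_inv_cancel₀ ha⟩
    have e : pv j α β = ((α * β₂ - α₂ * β) * D) •
        (pv j α₁ β₁ + ((α₁ * β - α * β₁) * A) • pv j α₂ β₂) := by
      rw [pv_smul, pv_add, pv_smul]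
      congr 1
      · linear_combination (-α) * hD - D * (α₁ * β - α * β₁) * α₂ * hA
      · linear_combination (-β) * hD - D * (α₁ * β - α * β₁) * β₂ * hA
    rw [e]
    exact AA_smul (tg_add h1 h2 hf _) _

/-- support in the first `k` coordinates -/
def tg_supp (k : ℕ) (v : VV n F) : Prop :=
  ∀ i : Fin n, k ≤ i.val → v (Sum.inl i) = 0 ∧ v (Sum.inr i) = 0

theorem tg_supp_add {k : ℕ} {v w : VV n F} (hv : tg_supp k v) (hw : tg_supp k w) :
    tg_supp k (v + w) := by
  intro i hi
  simp [(hv i hi).1, (hv i hi).2, (hw i hi).1, (hw i hi).2]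

theorem tg_supp_sub {k : ℕ} {v w : VV n F} (hv : tg_supp k v) (hw : tg_supp k w) :
    tg_supp k (v - w) := by
  intro i hi
  simp [(hv i hi).1, (hv i hi).2, (hw i hi).1, (hw i hi).2]

theorem tg_supp_pv {k : ℕ} (j : Fin n) (hj : j.val < k) (α β : F) : tg_supp k (pv j α β) := by
  intro i hi
  have hne : i ≠ j := by
    intro h
    rw [h] at hi
    omega
  unfold pv
  simp [Pi.single_eq_of_ne hne]

theorem tg_orth {k : ℕ} (l : Fin n) (hl : k ≤ l.val) (α β : F) {u : VV n F} (hu : tg_supp k u) :
    Cfsg.sympForm n F u (pv l α β) = 0 := by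
  rw [pv_form_left, (hu l hl).1, (hu l hl).2]
  ring

/-- a basis vector not orthogonal to a given nonzero vector -/
theorem tg_basis {k : ℕ} {w : VV n F} (hw : tg_supp k w) (h0 : w ≠ 0) :
    ∃ b : VV n F, tg_supp k b ∧ Cfsg.sympForm n F w b ≠ 0 := by
  obtain ⟨s, hs⟩ := Function.ne_iff.1 h0
  rcases s with i | i
  · have hi : i.val < k := by
      by_contra h
      exact hs (hw i (by omega)).1
    refine ⟨pv i 0 1, tg_supp_pv i hi _ _, ?_⟩
    rw [pv_form_left]
    simpa using hs
  · have hi : i.val < k := by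
      by_contra h
      exact hs (hw i (by omega)).2
    refine ⟨pv i 1 0, tg_supp_pv i hi _ _, ?_⟩
    rw [pv_form_left]
    simpa using hs

theorem tg_conn {k : ℕ} {w₁ w₂ : VV n F} (h1 : tg_supp k w₁) (h2 : tg_supp k w₂)
    (n1 : w₁ ≠ 0) (n2 : w₂ ≠ 0) :
    ∃ w : VV n F, tg_supp k w ∧ Cfsg.sympForm n F w₁ w ≠ 0 ∧ Cfsg.sympForm n F w w₂ ≠ 0 := by
  obtain ⟨b₁, s1, f1⟩ := tg_basis h1 n1
  obtain ⟨b₂, s2, f2⟩ := tg_basis h2 n2
  have f2' : Cfsg.sympForm n F b₂ w₂ ≠ 0 := by
    rw [tg_form_swap]
    exact neg_ne_zero.2 f2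
  by_cases c1 : Cfsg.sympForm n F b₁ w₂ = 0
  · by_cases c2 : Cfsg.sympForm n F w₁ b₂ = 0
    · refine ⟨b₁ + b₂, tg_supp_add s1 s2, ?_, ?_⟩
      · rw [tg_form_add_right, c2, add_zero]
        exact f1
      · rw [tg_form_add_left, c1, zero_add]
        exact f2'
    · exact ⟨b₂, s2, c2, f2'⟩
  · exact ⟨b₁, s1, f1, c1⟩

/-- hyperbolic planes and mixing vectors give everything -/
theorem tg_chain {K : Subgroup (SpG n F)}
    (hP : ∀ (j : Fin n) (α β : F), pv j α β ∈ AA K)
    (hM : ∀ (j : Fin n) (h : j.val + 1 < n),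
      (Sum.elim (Pi.single j 1 + Pi.single ⟨j.val + 1, h⟩ 1) 0 : VV n F) ∈ AA K) :
    K = ⊤ := by
  apply top_of_AA
  have key : ∀ k : ℕ, k ≤ n → ∀ v : VV n F, tg_supp k v → v ∈ AA K := by
    intro k
    induction k with
    | zero =>
      intro _ v hv
      have e : v = 0 := by
        ext (i | i)
        · exact (hv i (Nat.zero_le _)).1
        · exact (hv i (Nat.zero_le _)).2
      rw [e]
      exact tg_zero K
    | succ k ih =>
      intro hk v hv
      have ih' := ih (by omega)
      obtain ⟨l, hl⟩ : ∃ l : Fin n, l.val = k := ⟨⟨k, by omega⟩, rfl⟩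
      obtain ⟨w, hw⟩ : ∃ w : VV n F, w = v - pv l (v (Sum.inl l)) (v (Sum.inr l)) := ⟨_, rfl⟩
      have sw : tg_supp k w := by
        intro i hi
        rw [hw]
        by_cases hil : i = l
        · rw [hil]
          simp [pv]
        · have hi' : k + 1 ≤ i.val := by
            have : i.val ≠ l.val := fun h => hil (Fin.ext h)
            omega
          simp [pv, Pi.single_eq_of_ne hil, (hv i hi').1, (hv i hi').2]
      have ev : v = w + pv l (v (Sum.inl l)) (v (Sum.inr l)) := by
        rw [hw, sub_add_cancel]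
      by_cases w0 : w = 0
      · rw [ev, w0, zero_add]
        exact hP _ _ _
      have hk1 : 1 ≤ k := by
        by_contra h
        have hk0 : k = 0 := by omega
        apply w0
        ext (i | i)
        · exact (sw i (by omega)).1
        · exact (sw i (by omega)).2
      -- moving inside the first `k` coordinates
      have move : ∀ (w₁ w₂ : VV n F) (a b : F), tg_supp k w₁ → tg_supp k w₂ →
          Cfsg.sympForm n F w₁ w₂ ≠ 0 → w₁ + pv l a b ∈ AA K → w₂ + pv l a b ∈ AA K := by
        intro w₁ w₂ a b s1 s2 hf h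
        have hu : w₂ - w₁ ∈ AA K := ih' _ (tg_supp_sub s2 s1)
        have hf' : Cfsg.sympForm n F (w₁ + pv l a b) (w₂ - w₁) ≠ 0 := by
          rw [tg_form_add_left, tg_form_sub_right, tg_form_self, sub_zero,
            tg_form_swap (pv l a b), tg_orth l (by omega) a b (tg_supp_sub s2 s1), neg_zero,
            add_zero]
          exact hf
        have h' := tg_add h hu hf' 1
        have e : w₁ + pv l a b + (1 : F) • (w₂ - w₁) = w₂ + pv l a b := by
          rw [one_smul]
          abel
        rwa [e] at h'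
      -- moving inside the last plane
      have turn : ∀ (a b a' b' : F), b * a' - a * b' ≠ 0 → w + pv l a b ∈ AA K →
          w + pv l a' b' ∈ AA K := by
        intro a b a' b' hf h
        have hf' : Cfsg.sympForm n F (w + pv l a b) (pv l (a' - a) (b' - b)) ≠ 0 := by
          rw [tg_form_add_left, tg_orth l (by omega) _ _ sw, zero_add, pv_form]
          intro h0
          apply hf
          linear_combination h0
        have h' := tg_add h (hP l (a' - a) (b' - b)) hf' 1
        have e : w + pv l a b + (1 : F) • pv l (a' - a) (b' - b) = w + pv l a' b' := by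
          rw [one_smul, add_assoc, pv_add]
          congr 2 <;> ring
        rwa [e] at h'
      by_cases p0 : v (Sum.inl l) = 0 ∧ v (Sum.inr l) = 0
      · have e : v = w := by
          rw [ev, p0.1, p0.2]
          unfold pv
          simp
        rw [e]
        exact ih' w sw
      -- the mixing vector
      obtain ⟨j, hj⟩ : ∃ j : Fin n, j.val + 1 = k := ⟨⟨k - 1, by omega⟩, by simp; omega⟩
      have hm := hM j (by omega)
      have el : (⟨j.val + 1, by omega⟩ : Fin n) = l := Fin.ext (by rw [hl]; exact hj)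
      rw [el] at hm
      have em : (Sum.elim (Pi.single j 1 + Pi.single l 1) 0 : VV n F)
          = pv j 1 0 + pv l 1 0 := by
        unfold pv
        rw [elim_add, Pi.single_zero, Pi.single_zero, add_zero]
      rw [em] at hm
      have sj : tg_supp k (pv j (1 : F) 0) := tg_supp_pv j (by omega) _ _
      have nj : pv j (1 : F) 0 ≠ 0 := by
        intro h
        have h' := congrFun h (Sum.inl j)
        simp [pv] at h'
      obtain ⟨w', s', f1, f2⟩ := tg_conn sj sw nj w0
      have h1 : w + pv l 1 0 ∈ AA K := move _ _ _ _ s' sw f2 (move _ _ _ _ sj s' f1 hm)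
      rw [ev]
      by_cases hb : v (Sum.inr l) = 0
      · have ha : v (Sum.inl l) ≠ 0 := fun h => p0 ⟨h, hb⟩
        rw [hb]
        have h2 : w + pv l 0 1 ∈ AA K := turn 1 0 0 1 (by simp) h1
        exact turn 0 1 _ 0 (by simpa using ha) h2
      · exact turn 1 0 _ _ (by simpa using hb) h1
  intro w
  exact key n le_rfl w (fun i hi => absurd i.2 (by omega))

end Cfsg.Agent.Helper20.SpGen
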