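import Mathlib
import Cfsg.Agent.Helper20.SpGen13

/-!
# Symplectic groups: Levi elements, elements of a hyperbolic plane, scaling of centres
-/

set_option autoImplicit false

namespace Cfsg.Agent.Helper20.SpGen

open Matrix

variable {F : Type*} [Field F] {n : ℕ}

/-! ### transvections with a fixed centre -/

theorem tg_tvS_add (v : VV n F) (c c' : F) : tvS n v c * tvS n v c' = tvS n v (c + c') := by
  apply Subtype.ext
  show Cfsg.sympTransvection n v c * Cfsg.sympTransvection n v c'
    = Cfsg.sympTransvection n v (c + c')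
  unfold Cfsg.sympTransvection
  have h0 : (Matrix.J (Fin n) F *ᵥ v) ⬝ᵥ v = 0 := by
    rw [dotProduct_comm]
    exact tg_form_self v
  rw [Matrix.add_mul, Matrix.one_mul, Matrix.mul_add, Matrix.mul_one, Matrix.smul_mul,
    Matrix.mul_smul, Matrix.vecMulVec_mul_vecMulVec, h0, zero_smul, Matrix.vecMulVec_zero,
    smul_zero, smul_zero, add_zero, add_smul]
  abel

theorem tg_tvS_zero (v : VV n F) : tvS n v 0 = 1 := by
  apply Subtype.ext
  show Cfsg.sympTransvection n v 0 = 1
  unfold Cfsg.sympTransvection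
  rw [zero_smul, add_zero]

theorem tg_tvS_pow (v : VV n F) (N : ℕ) : tvS n v 1 ^ N = tvS n v (N : F) := by
  induction N with
  | zero => rw [pow_zero, Nat.cast_zero, tg_tvS_zero]
  | succ N ih => rw [pow_succ, ih, tg_tvS_add, Nat.cast_succ]

/-- scaling the centre by a generator of the multiplicative group gives all transvections -/
theorem tg_scale [Fintype F] {K : Subgroup (SpG n F)} (v : VV n F) (c₀ : F) (hc₀ : c₀ ≠ 0)
    (h0 : tvS n v c₀ ∈ K) (lam : F) (hgen : ∀ a : F, a ≠ 0 → ∃ l : ℕ, lam ^ l = a)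
    (hstep : ∀ c : F, tvS n (c • v) c₀ ∈ K → tvS n ((lam * c) • v) c₀ ∈ K) : v ∈ AA K := by
  have hpow : ∀ l : ℕ, tvS n (lam ^ l • v) c₀ ∈ K := by
    intro l
    induction l with
    | zero =>
      rw [pow_zero, one_smul]
      exact h0
    | succ l ih =>
      rw [pow_succ']
      exact hstep _ ih
  have hall : ∀ a : F, tvS n v (c₀ * a * a) ∈ K := by
    intro a
    by_cases ha : a = 0
    · rw [ha, mul_zero, tg_tvS_zero]
      exact K.one_mem
    · obtain ⟨l, hl⟩ := hgen a ha
      rw [← tvS_smul, ← hl]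
      exact hpow l
  intro c
  obtain ⟨a, b, hab⟩ := two_squares (c * c₀⁻¹)
  have e : c = c₀ * a * a + c₀ * b * b := by
    have : c = c₀ * (c * c₀⁻¹) := by
      field_simp
    rw [this, ← hab]
    ring
  rw [e, ← tg_tvS_add]
  exact K.mul_mem (hall a) (hall b)

/-! ### Levi elements -/

/-- the element `diag(G, H)` of the Levi subgroup of the Siegel parabolic -/
def tg_lev (G H : Matrix (Fin n) (Fin n) F) (h : Gᵀ * H = 1) : SpG n F :=
  ⟨Matrix.fromBlocks G 0 0 H, blk_mem h (by simp)⟩

theorem tg_lev_mulVec (G H : Matrix (Fin n) (Fin n) F) (h : Gᵀ * H = 1) (x y : Fin n → F) :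
    ((tg_lev G H h : SpG n F) : MM n F) *ᵥ Sum.elim x y = Sum.elim (G *ᵥ x) (H *ᵥ y) := by
  show Matrix.fromBlocks G 0 0 H *ᵥ Sum.elim x y = _
  rw [Matrix.fromBlocks_mulVec]
  simp

/-! ### elements of `SL_2` on a hyperbolic plane -/

/-- the diagonal matrix unit -/
def tg_E (i : Fin n) : Matrix (Fin n) (Fin n) F := Matrix.single i i 1

theorem tg_E_sq (i : Fin n) : tg_E i * tg_E i = (tg_E i : Matrix (Fin n) (Fin n) F) := by
  unfold tg_E
  rw [Matrix.single_mul_single_same, mul_one]

theorem tg_E_tr (i : Fin n) : (tg_E i : Matrix (Fin n) (Fin n) F)ᵀ = tg_E i := by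
  unfold tg_E
  rw [Matrix.transpose_single]

theorem tg_E_mulVec (i : Fin n) (x : Fin n → F) :
    (tg_E i : Matrix (Fin n) (Fin n) F) *ᵥ x = Pi.single i (x i) := by
  unfold tg_E
  rw [Matrix.single_mulVec, one_mul]
  rfl

/-- the matrix acting as `!![p, q; r, s]` on the `i`-th hyperbolic plane -/
def tg_embM (i : Fin n) (p q r s : F) : MM n F :=
  Matrix.fromBlocks (1 + (p - 1) • tg_E i) (q • tg_E i) (r • tg_E i) (1 + (s - 1) • tg_E i)

theorem tg_embM_mul (i : Fin n) (p q r s p' q' r' s' : F) :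
    tg_embM i p q r s * tg_embM i p' q' r' s'
      = tg_embM i (p * p' + q * r') (p * q' + q * s') (r * p' + s * r') (r * q' + s * s') := by
  unfold tg_embM
  rw [Matrix.fromBlocks_multiply]
  have hE := tg_E_sq (F := F) i
  congr 1
  all_goals
    simp only [add_mul, mul_add, one_mul, mul_one, smul_mul_assoc, mul_smul_comm, hE, smul_smul]
    module

theorem tg_embM_one (i : Fin n) : tg_embM i (1 : F) 0 0 1 = 1 := by
  unfold tg_embM
  rw [sub_self, zero_smul, add_zero, Matrix.fromBlocks_one]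

theorem tg_embM_mem (i : Fin n) (p q r s : F) (h : p * s - q * r = 1) :
    tg_embM i p q r s ∈ Matrix.symplecticGroup (Fin n) F := by
  rw [SymplecticGroup.mem_iff]
  unfold tg_embM Matrix.J
  rw [Matrix.fromBlocks_transpose, Matrix.fromBlocks_multiply, Matrix.fromBlocks_multiply]
  have hE := tg_E_sq (F := F) i
  have hT := tg_E_tr (F := F) i
  congr 1
  all_goals
    simp only [Matrix.transpose_add, Matrix.transpose_one, Matrix.transpose_smul, hT, mul_zero,
      mul_one, one_mul, mul_neg, neg_mul, zero_add, add_zero, add_mul, mul_add,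
      smul_mul_assoc, mul_smul_comm, hE, smul_smul]
    match_scalars <;> first | ring1 | linear_combination h | linear_combination (-1 : F) * h

theorem tg_embM_mulVec (i : Fin n) (p q r s : F) (x y : Fin n → F) :
    tg_embM i p q r s *ᵥ Sum.elim x y
      = Sum.elim (x + Pi.single i ((p - 1) * x i + q * y i))
          (y + Pi.single i (r * x i + (s - 1) * y i)) := by
  unfold tg_embM
  rw [Matrix.fromBlocks_mulVec]
  simp only [Matrix.add_mulVec, Matrix.one_mulVec, Matrix.smul_mulVec, tg_E_mulVec,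
    Sum.elim_comp_inl, Sum.elim_comp_inr]
  congr 1
  · ext k
    simp only [Pi.add_apply, Pi.smul_apply, Pi.single_apply, smul_eq_mul]
    split_ifs <;> ring
  · ext k
    simp only [Pi.add_apply, Pi.smul_apply, Pi.single_apply, smul_eq_mul]
    split_ifs <;> ring

/-- the element `!![0, -1; 1, s]` of `SL_2` on the `i`-th hyperbolic plane -/
def tg_eps (i : Fin n) (s : F) : SpG n F :=
  ⟨tg_embM i 0 (-1) 1 s, tg_embM_mem i 0 (-1) 1 s (by ring)⟩

theorem tg_eps_coe (i : Fin n) (s : F) :
    ((tg_eps i s : SpG n F) : MM n F) = tg_embM i 0 (-1) 1 s := rfl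

theorem tg_eps_pv (i : Fin n) (s α β : F) :
    ((tg_eps i s : SpG n F) : MM n F) *ᵥ pv i α β = pv i (-β) (α + s * β) := by
  classical
  rw [tg_eps_coe]
  unfold pv
  rw [tg_embM_mulVec, Pi.single_eq_same, Pi.single_eq_same, ← Pi.single_add, ← Pi.single_add]
  congr 2 <;> ring

/-- `!![0, -1; 1, -1]` has order three -/
theorem tg_eps_three (i : Fin n) : (tg_eps i (-1 : F)) ^ 3 = 1 := by
  apply Subtype.ext
  rw [SubmonoidClass.coe_pow, OneMemClass.coe_one, tg_eps_coe, pow_succ, pow_two, tg_embM_mul,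
    tg_embM_mul, ← tg_embM_one i]
  congr 1 <;> ring

/-- `!![0, -1; 1, 0]` has order four -/
theorem tg_eps_four (i : Fin n) : (tg_eps i (0 : F)) ^ 4 = 1 := by
  apply Subtype.ext
  have e : (4 : ℕ) = 2 + 2 := rfl
  rw [SubmonoidClass.coe_pow, OneMemClass.coe_one, tg_eps_coe, e, pow_add, pow_two, tg_embM_mul,
    tg_embM_mul, ← tg_embM_one i]
  congr 1 <;> ring

/-- a transvection times a commuting element of finite order -/
theorem tg_split_pow {K : Subgroup (SpG n F)} (v : VV n F) (e : SpG n F)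
    (hfix : (e : MM n F) *ᵥ v = v) (N : ℕ) (hN : e ^ N = 1) (hb : tvS n v 1 * e ∈ K) :
    tvS n v (N : F) ∈ K := by
  have hc : Commute (tvS n v 1) e := by
    have h := conj_tvS e v 1
    rw [hfix] at h
    have h' : e * tvS n v 1 = tvS n v 1 * e := by
      calc e * tvS n v 1 = (e * tvS n v 1 * e⁻¹) * e := by group
        _ = tvS n v 1 * e := by rw [h]
    exact h'.symm
  have h := K.pow_mem hb N
  rwa [hc.mul_pow, hN, mul_one, tg_tvS_pow] at h

end Cfsg.Agent.Helper20.SpGen
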