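import Mathlib
import Cfsg.Agent.Helper20.SpGen14

/-!
# Symplectic groups of rank at least three are generated by two elements
-/

set_option autoImplicit false

namespace Cfsg.Agent.Helper20.SpGen

open Matrix

variable {F : Type*} [Field F] {n : ℕ}

/-- weighted permutation matrix: `e_j ↦ g j • e_{σ j}` -/
def tg_cycM (σ : Equiv.Perm (Fin n)) (g : Fin n → F) : Matrix (Fin n) (Fin n) F :=
  Matrix.of fun k j => if k = σ j then g j else 0

theorem tg_cycM_rel (σ : Equiv.Perm (Fin n)) (g h : Fin n → F) (hgh : ∀ j, g j * h j = 1) :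
    (tg_cycM σ g)ᵀ * tg_cycM σ h = 1 := by
  classical
  ext j l
  rw [Matrix.mul_apply, Matrix.one_apply]
  have e : ∀ k : Fin n, (tg_cycM σ g)ᵀ j k * tg_cycM σ h k l
      = if k = σ j then (if σ j = σ l then g j * h l else 0) else 0 := by
    intro k
    simp only [Matrix.transpose_apply, tg_cycM, Matrix.of_apply]
    by_cases hk : k = σ j
    · subst hk
      by_cases hl : σ j = σ l
      · simp [hl]
      · simp [hl]
    · simp [hk]
  rw [Finset.sum_congr rfl (fun k _ => e k), Finset.sum_ite_eq' Finset.univ (σ j)]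
  by_cases hjl : j = l
  · subst hjl
    simp [hgh]
  · have hne : σ j ≠ σ l := fun h => hjl (σ.injective h)
    simp [hjl, hne]

theorem tg_cycM_single (σ : Equiv.Perm (Fin n)) (g : Fin n → F) (j : Fin n) (c : F) :
    tg_cycM σ g *ᵥ Pi.single j c = Pi.single (σ j) (g j * c) := by
  classical
  ext k
  rw [Matrix.mulVec_single]
  simp only [Pi.smul_apply, Matrix.col_apply, tg_cycM, Matrix.of_apply, Pi.single_apply,
    MulOpposite.smul_eq_mul_unop, MulOpposite.unop_op]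
  split_ifs <;> simp

/-- the monomial Levi element -/
def tg_cyc (σ : Equiv.Perm (Fin n)) (g h : Fin n → F) (hgh : ∀ j, g j * h j = 1) : SpG n F :=
  tg_lev (tg_cycM σ g) (tg_cycM σ h) (tg_cycM_rel σ g h hgh)

theorem tg_cyc_pv (σ : Equiv.Perm (Fin n)) (g h : Fin n → F) (hgh : ∀ j, g j * h j = 1)
    (j : Fin n) (α β : F) :
    ((tg_cyc σ g h hgh : SpG n F) : MM n F) *ᵥ pv j α β = pv (σ j) (g j * α) (h j * β) := by
  unfold tg_cyc pv
  rw [tg_lev_mulVec, tg_cycM_single, tg_cycM_single]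

/-- mixing vectors -/
def mx (j j' : Fin n) (c c' : F) : VV n F := Sum.elim (Pi.single j c + Pi.single j' c') 0

theorem tg_cyc_mx (σ : Equiv.Perm (Fin n)) (g h : Fin n → F) (hgh : ∀ j, g j * h j = 1)
    (j j' : Fin n) (c c' : F) :
    ((tg_cyc σ g h hgh : SpG n F) : MM n F) *ᵥ mx j j' c c'
      = mx (σ j) (σ j') (g j * c) (g j' * c') := by
  unfold tg_cyc mx
  rw [tg_lev_mulVec, Matrix.mulVec_add, tg_cycM_single, tg_cycM_single, Matrix.mulVec_zero]

theorem mx_smul (j j' : Fin n) (a c c' : F) : a • mx j j' c c' = mx j j' (a * c) (a * c') := by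
  unfold mx
  rw [elim_smul, smul_add, ← Pi.single_smul, ← Pi.single_smul, smul_zero, smul_eq_mul,
    smul_eq_mul]

theorem tg_big [Fintype F] (k : ℕ) (lam lam' : F) (hlam : lam * lam' = 1)
    (hgen : ∀ a : F, a ≠ 0 → ∃ l : ℕ, lam ^ l = a)
    (s : F) (N : ℕ) (hN : (N : F) ≠ 0) (hs : 2 - s ≠ 0)
    (hε : ∀ i : Fin (k + 3), tg_eps i s ^ N = 1) :
    ∃ a b : SpG (k + 3) F, Subgroup.closure ({a, b} : Set (SpG (k + 3) F)) = ⊤ := by
  classical
  obtain ⟨σ, hσd⟩ : ∃ σ : Equiv.Perm (Fin (k + 3)), σ = finRotate (k + 3) := ⟨_, rfl⟩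
  obtain ⟨g, hgd⟩ : ∃ g : Fin (k + 3) → F, g = fun j => if j.val = k + 2 then lam else 1 :=
    ⟨_, rfl⟩
  obtain ⟨h, hhd⟩ : ∃ h : Fin (k + 3) → F, h = fun j => if j.val = k + 2 then lam' else 1 :=
    ⟨_, rfl⟩
  have hgh : ∀ j, g j * h j = 1 := by
    intro j
    rw [hgd, hhd]
    by_cases hj : j.val = k + 2
    · simp [hj, hlam]
    · simp [hj]
  have hσ : ∀ (j : ℕ) (hj : j < k + 2), σ ⟨j, by omega⟩ = ⟨j + 1, by omega⟩ := by
    intro j hj
    rw [hσd]
    exact finRotate_of_lt hj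
  have hσl : σ ⟨k + 2, by omega⟩ = ⟨0, by omega⟩ := by
    rw [hσd]
    exact finRotate_last'
  have hg : ∀ (j : ℕ) (hj : j < k + 2), g ⟨j, by omega⟩ = 1 := by
    intro j hj
    rw [hgd]
    simp
    omega
  have hh : ∀ (j : ℕ) (hj : j < k + 2), h ⟨j, by omega⟩ = 1 := by
    intro j hj
    rw [hhd]
    simp
    omega
  have hgl : g ⟨k + 2, by omega⟩ = lam := by
    rw [hgd]
    simp
  obtain ⟨i0, hi0⟩ : ∃ i : Fin (k + 3), i = ⟨0, by omega⟩ := ⟨_, rfl⟩
  obtain ⟨i1, hi1⟩ : ∃ i : Fin (k + 3), i = ⟨1, by omega⟩ := ⟨_, rfl⟩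
  obtain ⟨i2, hi2⟩ : ∃ i : Fin (k + 3), i = ⟨2, by omega⟩ := ⟨_, rfl⟩
  have h10 : i1 ≠ i0 := by
    rw [hi0, hi1]
    simp
  have h20 : i2 ≠ i0 := by
    rw [hi0, hi2]
    simp
  obtain ⟨a, had⟩ : ∃ a : SpG (k + 3) F, a = tg_cyc σ g h hgh := ⟨_, rfl⟩
  obtain ⟨e, hed⟩ : ∃ e : SpG (k + 3) F, e = tg_eps i0 s := ⟨_, rfl⟩
  refine ⟨a, tvS _ (mx i1 i2 1 1) 1 * e, ?_⟩
  obtain ⟨K, hKd⟩ : ∃ K : Subgroup (SpG (k + 3) F),
      K = Subgroup.closure ({a, tvS _ (mx i1 i2 1 1) 1 * e} : Set (SpG (k + 3) F)) := ⟨_, rfl⟩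
  rw [← hKd]
  have ha : a ∈ K := by
    rw [hKd]
    exact Subgroup.subset_closure (Set.mem_insert _ _)
  have hb : tvS _ (mx i1 i2 1 1) 1 * e ∈ K := by
    rw [hKd]
    exact Subgroup.subset_closure (Set.mem_insert_of_mem _ rfl)
  have hfix : (e : MM (k + 3) F) *ᵥ mx i1 i2 1 1 = mx i1 i2 1 1 := by
    rw [hed, tg_eps_coe]
    unfold mx
    rw [tg_embM_mulVec]
    simp [Pi.single_apply, h10.symm, h20.symm]
  have h1 : tvS _ (mx i1 i2 (1 : F) 1) (N : F) ∈ K :=
    tg_split_pow _ e hfix N (by rw [hed]; exact hε i0) hb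
  -- the orbit of the mixing vectors under the monomial element
  have orbit : ∀ S : Set (VV (k + 3) F), (∀ u ∈ S, (a : MM (k + 3) F) *ᵥ u ∈ S) → ∀ c : F,
      mx i1 i2 c c ∈ S →
      (∀ (j : ℕ) (_ : 1 ≤ j) (h2 : j ≤ k + 1), mx ⟨j, by omega⟩ ⟨j + 1, by omega⟩ c c ∈ S) ∧
        mx i0 i1 (lam * c) (lam * c) ∈ S ∧ mx i1 i2 (lam * c) (lam * c) ∈ S := by
    intro S hS c hc
    have up : ∀ (j : ℕ) (_ : 1 ≤ j) (h2 : j ≤ k + 1),
        mx ⟨j, by omega⟩ ⟨j + 1, by omega⟩ c c ∈ S := by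
      intro j h1
      induction j, h1 using Nat.le_induction with
      | base =>
        intro h2
        rw [hi1, hi2] at hc
        exact hc
      | succ j hj ih =>
        intro h2
        have h3 := hS _ (ih (by omega))
        rw [had, tg_cyc_mx, hσ j (by omega), hσ (j + 1) (by omega), hg j (by omega),
          hg (j + 1) (by omega), one_mul] at h3
        exact h3
    have t1 := hS _ (up (k + 1) (by omega) le_rfl)
    rw [had, tg_cyc_mx, hσ (k + 1) (by omega), hσl, hg (k + 1) (by omega), hgl, one_mul] at t1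
    have t2 := hS _ t1
    rw [had, tg_cyc_mx, hσl, hσ 0 (by omega), hgl, hg 0 (by omega), one_mul] at t2
    have t3 := hS _ t2
    rw [had, tg_cyc_mx, hσ 0 (by omega), hσ 1 (by omega), hg 0 (by omega), hg 1 (by omega),
      one_mul] at t3
    refine ⟨up, ?_, ?_⟩
    · rw [hi0, hi1]
      exact t2
    · rw [hi1, hi2]
      exact t3
  have hv : mx i1 i2 (1 : F) 1 ∈ AA K := by
    refine tg_scale _ (N : F) hN h1 lam hgen ?_
    intro c hc
    rw [mx_smul, mul_one] at hc ⊢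
    refine (orbit {u | tvS _ u (N : F) ∈ K} ?_ c hc).2.2
    intro u hu
    have h3 : a * tvS _ u (N : F) * a⁻¹ ∈ K := K.mul_mem (K.mul_mem ha hu) (K.inv_mem ha)
    rw [conj_tvS] at h3
    exact h3
  have he : e ∈ K := by
    have h3 := K.mul_mem (K.inv_mem (hv 1)) hb
    rwa [inv_mul_cancel_left] at h3
  obtain ⟨up, m0', -⟩ := orbit (AA K) (fun u hu => AA_mulVec ha hu) 1 hv
  have m0 : mx i0 i1 (1 : F) 1 ∈ AA K := by
    have h3 := AA_smul m0' lam'
    rw [mx_smul, mul_one] at h3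
    have e1 : lam' * lam = 1 := by rw [mul_comm]; exact hlam
    rwa [e1] at h3
  -- the first hyperbolic plane
  have u1 : (Sum.elim (Pi.single i1 1) (Pi.single i0 1) : VV (k + 3) F) ∈ AA K := by
    have h3 := AA_mulVec he m0
    rw [hed, tg_eps_coe] at h3
    unfold mx at h3
    rw [tg_embM_mulVec] at h3
    have e1 : (Pi.single i0 (1 : F) + Pi.single i1 1 + Pi.single i0 ((0 - 1) * (Pi.single i0 (1 : F)
        + Pi.single i1 1 : Fin (k + 3) → F) i0 + -1 * (0 : Fin (k + 3) → F) i0)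
        : Fin (k + 3) → F) = Pi.single i1 1 := by
      ext j
      simp [Pi.single_apply, h10.symm]
      split_ifs <;> simp
    have e2 : ((0 : Fin (k + 3) → F) + Pi.single i0 (1 * (Pi.single i0 (1 : F)
        + Pi.single i1 1 : Fin (k + 3) → F) i0 + (s - 1) * (0 : Fin (k + 3) → F) i0)
        : Fin (k + 3) → F) = Pi.single i0 1 := by
      ext j
      simp [Pi.single_apply, h10.symm]
    rwa [e1, e2] at h3
  have v1 : pv i0 (-1 : F) 1 ∈ AA K := by
    have hf : Cfsg.sympForm (k + 3) F (Sum.elim (Pi.single i1 1) (Pi.single i0 1))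
        (mx i0 i1 1 1) ≠ 0 := by
      unfold mx
      rw [form_elim]
      simp [single_dotProduct, Pi.single_apply, h10.symm]
    have h3 := tg_add u1 m0 hf (-1)
    have e1 : (Sum.elim (Pi.single i1 1) (Pi.single i0 1) : VV (k + 3) F)
        + (-1 : F) • mx i0 i1 1 1 = pv i0 (-1) 1 := by
      unfold mx pv
      rw [elim_smul, elim_add]
      congr 1
      · ext j
        simp [Pi.single_apply]
        split_ifs <;> simp
      · simp
    rwa [e1] at h3
  have v2 : pv i0 (-1 : F) (-1 + s * 1) ∈ AA K := by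
    have h3 := AA_mulVec he v1
    rwa [hed, tg_eps_pv] at h3
  have plane0 : ∀ α β : F, pv i0 α β ∈ AA K := by
    refine tg_plane i0 (-1) 1 (-1) (-1 + s * 1) v1 v2 ?_
    intro h0
    apply hs
    linear_combination h0
  have planes : ∀ (j : ℕ) (hj : j ≤ k + 2) (α β : F), pv ⟨j, by omega⟩ α β ∈ AA K := by
    intro j
    induction j with
    | zero =>
      intro _ α β
      have h3 := plane0 α β
      rw [hi0] at h3
      exact h3
    | succ j ih =>
      intro hj α β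
      have h3 := AA_mulVec ha (ih (by omega) α β)
      rw [had, tg_cyc_pv, hσ j (by omega), hg j (by omega), hh j (by omega), one_mul,
        one_mul] at h3
      exact h3
  apply tg_chain
  · intro j α β
    exact planes j.val (by omega) α β
  · intro j hlt
    rcases j with ⟨_ | jv, hj⟩
    · have h3 := m0
      rw [hi0, hi1] at h3
      exact h3
    · have hlt' : jv + 1 + 1 < k + 3 := hlt
      exact up (jv + 1) (by omega) (by omega)

end Cfsg.Agent.Helper20.SpGen
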