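import Mathlib
import Cfsg.Agent.Helper20.SpGen15

/-!
# The symplectic group of rank two is generated by two elements
-/

set_option autoImplicit false

namespace Cfsg.Agent.Helper20.SpGen

open Matrix

variable {F : Type*} [Field F]

theorem tg_G2_single0 (lam c : F) :
    (!![lam, 0; lam, lam] : Matrix (Fin 2) (Fin 2) F) *ᵥ Pi.single 0 c
      = Pi.single 0 (lam * c) + Pi.single 1 (lam * c) := by
  ext k
  fin_cases k <;> simp [Matrix.mulVec, dotProduct, Fin.sum_univ_two]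

theorem tg_G2_single1 (lam c : F) :
    (!![lam, 0; lam, lam] : Matrix (Fin 2) (Fin 2) F) *ᵥ Pi.single 1 c
      = Pi.single 1 (lam * c) := by
  ext k
  fin_cases k <;> simp [Matrix.mulVec, dotProduct, Fin.sum_univ_two]

theorem tg_H2_single1 (lam' c : F) :
    (!![lam', -lam'; 0, lam'] : Matrix (Fin 2) (Fin 2) F) *ᵥ Pi.single 1 c
      = Pi.single 0 (-(lam' * c)) + Pi.single 1 (lam' * c) := by
  ext k
  fin_cases k <;> simp [Matrix.mulVec, dotProduct, Fin.sum_univ_two]

theorem tg_small [Fintype F] (lam lam' : F) (hlam : lam * lam' = 1)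
    (hgen : ∀ a : F, a ≠ 0 → ∃ l : ℕ, lam ^ l = a)
    (s : F) (N : ℕ) (hN : (N : F) ≠ 0) (hs : 2 - s ≠ 0)
    (hε : ∀ i : Fin 2, tg_eps i s ^ N = 1) :
    ∃ a b : SpG 2 F, Subgroup.closure ({a, b} : Set (SpG 2 F)) = ⊤ := by
  classical
  have hrel : (!![lam, 0; lam, lam] : Matrix (Fin 2) (Fin 2) F)ᵀ * !![lam', -lam'; 0, lam']
      = 1 := by
    ext i j
    fin_cases i <;> fin_cases j <;> simp [Matrix.mul_apply, Fin.sum_univ_two, hlam]
  obtain ⟨a, had⟩ : ∃ a : SpG 2 F, a = tg_lev _ _ hrel := ⟨_, rfl⟩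
  obtain ⟨e, hed⟩ : ∃ e : SpG 2 F, e = tg_eps 1 s := ⟨_, rfl⟩
  refine ⟨a, tvS _ (pv 0 1 0) 1 * e, ?_⟩
  obtain ⟨K, hKd⟩ : ∃ K : Subgroup (SpG 2 F),
      K = Subgroup.closure ({a, tvS _ (pv 0 1 0) 1 * e} : Set (SpG 2 F)) := ⟨_, rfl⟩
  rw [← hKd]
  have ha : a ∈ K := by
    rw [hKd]
    exact Subgroup.subset_closure (Set.mem_insert _ _)
  have hb : tvS _ (pv 0 1 0) 1 * e ∈ K := by
    rw [hKd]
    exact Subgroup.subset_closure (Set.mem_insert_of_mem _ rfl)
  have hfix : (e : MM 2 F) *ᵥ pv 0 1 0 = pv 0 1 0 := by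
    rw [hed, tg_eps_coe]
    unfold pv
    rw [tg_embM_mulVec]
    simp
  have h1 : tvS _ (pv (0 : Fin 2) (1 : F) 0) (N : F) ∈ K :=
    tg_split_pow _ e hfix N (by rw [hed]; exact hε 1) hb
  have act : ∀ d d' : F, (a : MM 2 F) *ᵥ mx 0 1 d d' = mx 0 1 (lam * d) (lam * (d + d')) := by
    intro d d'
    rw [had]
    unfold mx
    rw [tg_lev_mulVec, Matrix.mulVec_add, tg_G2_single0, tg_G2_single1, Matrix.mulVec_zero,
      add_assoc, ← Pi.single_add, mul_add]
  have epv : ∀ c : F, pv (0 : Fin 2) c 0 = mx 0 1 c 0 := by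
    intro c
    unfold pv mx
    rw [Pi.single_zero, Pi.single_zero, add_zero]
  have hv : pv (0 : Fin 2) (1 : F) 0 ∈ AA K := by
    refine tg_scale _ (N : F) hN h1 lam hgen ?_
    intro c hc
    rw [pv_smul, mul_one, mul_zero] at hc ⊢
    have hS : ∀ u : VV 2 F, tvS _ u (N : F) ∈ K → tvS _ ((a : MM 2 F) *ᵥ u) (N : F) ∈ K := by
      intro u hu
      have h3 : a * tvS _ u (N : F) * a⁻¹ ∈ K := K.mul_mem (K.mul_mem ha hu) (K.inv_mem ha)
      rw [conj_tvS] at h3
      exact h3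
    have hl : ∀ l : ℕ, tvS _ (mx 0 1 (lam ^ l * c) (lam ^ l * (l : F) * c)) (N : F) ∈ K := by
      intro l
      induction l with
      | zero =>
        rw [pow_zero, one_mul, Nat.cast_zero, mul_zero, zero_mul, ← epv]
        exact hc
      | succ l ih =>
        have h3 := hS _ ih
        rw [act] at h3
        have e1 : lam * (lam ^ l * c) = lam ^ (l + 1) * c := by ring
        have e2 : lam * (lam ^ l * c + lam ^ l * (l : F) * c)
            = lam ^ (l + 1) * ((l + 1 : ℕ) : F) * c := by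
          push_cast
          ring
        rwa [e1, e2] at h3
    have h3 := hl (Fintype.card F)
    rwa [FiniteField.pow_card, FiniteField.cast_card_eq_zero, mul_zero, zero_mul, ← epv] at h3
  have he : e ∈ K := by
    have h3 := K.mul_mem (K.inv_mem (hv 1)) hb
    rwa [inv_mul_cancel_left] at h3
  have e1 : lam' * lam = 1 := by rw [mul_comm]; exact hlam
  have m0 : mx (0 : Fin 2) 1 (1 : F) 1 ∈ AA K := by
    have h3 := AA_smul (AA_mulVec ha hv) lam'
    rw [epv, act, mx_smul, add_zero, mul_one, e1] at h3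
    exact h3
  -- the second hyperbolic plane
  have u1 : (Sum.elim (Pi.single 0 1) (Pi.single 1 1) : VV 2 F) ∈ AA K := by
    have h3 := AA_mulVec he m0
    rw [hed, tg_eps_coe] at h3
    unfold mx at h3
    rw [tg_embM_mulVec] at h3
    have e2 : (Pi.single 0 (1 : F) + Pi.single 1 1 + Pi.single 1 ((0 - 1) * (Pi.single 0 (1 : F)
        + Pi.single 1 1 : Fin 2 → F) 1 + -1 * (0 : Fin 2 → F) 1)
        : Fin 2 → F) = Pi.single 0 1 := by
      ext j
      fin_cases j <;> simp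
    have e3 : ((0 : Fin 2 → F) + Pi.single 1 (1 * (Pi.single 0 (1 : F)
        + Pi.single 1 1 : Fin 2 → F) 1 + (s - 1) * (0 : Fin 2 → F) 1)
        : Fin 2 → F) = Pi.single 1 1 := by
      ext j
      fin_cases j <;> simp
    rwa [e2, e3] at h3
  have v1 : pv (1 : Fin 2) (-1 : F) 1 ∈ AA K := by
    have hf : Cfsg.sympForm 2 F (Sum.elim (Pi.single 0 1) (Pi.single 1 1))
        (mx 0 1 1 1) ≠ 0 := by
      unfold mx
      rw [form_elim]
      simp [dotProduct, Fin.sum_univ_two]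
    have h3 := tg_add u1 m0 hf (-1)
    have e2 : (Sum.elim (Pi.single 0 1) (Pi.single 1 1) : VV 2 F)
        + (-1 : F) • mx 0 1 1 1 = pv 1 (-1) 1 := by
      unfold mx pv
      ext (j | j) <;> fin_cases j <;> simp
    rwa [e2] at h3
  have v2 : pv (1 : Fin 2) (-1 : F) (-1 + s * 1) ∈ AA K := by
    have h3 := AA_mulVec he v1
    rwa [hed, tg_eps_pv] at h3
  have plane1 : ∀ α β : F, pv (1 : Fin 2) α β ∈ AA K := by
    refine tg_plane 1 (-1) 1 (-1) (-1 + s * 1) v1 v2 ?_
    intro h0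
    apply hs
    linear_combination h0
  -- the first hyperbolic plane
  have u2 : (Sum.elim 0 (Pi.single 0 (-1) + Pi.single 1 1) : VV 2 F) ∈ AA K := by
    have h3 := AA_smul (AA_mulVec ha (plane1 0 1)) lam
    rw [had] at h3
    unfold pv at h3
    rw [tg_lev_mulVec, tg_G2_single1, tg_H2_single1, elim_smul] at h3
    have e2 : lam • (Pi.single (1 : Fin 2) (lam * 0) : Fin 2 → F) = 0 := by
      rw [mul_zero, Pi.single_zero, smul_zero]
    have e3 : lam • ((Pi.single 0 (-(lam' * 1)) + Pi.single 1 (lam' * 1) : Fin 2 → F))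
        = Pi.single 0 (-1) + Pi.single 1 1 := by
      rw [smul_add, ← Pi.single_smul, ← Pi.single_smul, smul_eq_mul, smul_eq_mul, mul_one,
        mul_neg, hlam]
    rwa [e2, e3] at h3
  have u3 : (Sum.elim (Pi.single 1 1) (Pi.single 0 (-1) + Pi.single 1 1) : VV 2 F) ∈ AA K := by
    have hf : Cfsg.sympForm 2 F (Sum.elim 0 (Pi.single 0 (-1) + Pi.single 1 1))
        (pv 1 1 0) ≠ 0 := by
      rw [pv_form_left]
      simp
    have h3 := tg_add u2 (plane1 1 0) hf 1
    have e2 : (Sum.elim 0 (Pi.single 0 (-1) + Pi.single 1 1) : VV 2 F)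
        + (1 : F) • pv 1 1 0 = Sum.elim (Pi.single 1 1) (Pi.single 0 (-1) + Pi.single 1 1) := by
      unfold pv
      ext (j | j) <;> fin_cases j <;> simp
    rwa [e2] at h3
  have u4 : (Sum.elim (Pi.single 1 1) (Pi.single 0 (-1)) : VV 2 F) ∈ AA K := by
    have hf : Cfsg.sympForm 2 F (Sum.elim (Pi.single 1 1) (Pi.single 0 (-1) + Pi.single 1 1))
        (pv 1 0 1) ≠ 0 := by
      rw [pv_form_left]
      simp
    have h3 := tg_add u3 (plane1 0 1) hf (-1)
    have e2 : (Sum.elim (Pi.single 1 1) (Pi.single 0 (-1) + Pi.single 1 1) : VV 2 F)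
        + (-1 : F) • pv 1 0 1 = Sum.elim (Pi.single 1 1) (Pi.single 0 (-1)) := by
      unfold pv
      ext (j | j) <;> fin_cases j <;> simp
    rwa [e2] at h3
  have u5 : pv (0 : Fin 2) (-1 : F) (-1) ∈ AA K := by
    have hf : Cfsg.sympForm 2 F (Sum.elim (Pi.single 1 1) (Pi.single 0 (-1)))
        (mx 0 1 1 1) ≠ 0 := by
      unfold mx
      rw [form_elim]
      simp [dotProduct, Fin.sum_univ_two]
    have h3 := tg_add u4 m0 hf (-1)
    have e2 : (Sum.elim (Pi.single 1 1) (Pi.single 0 (-1)) : VV 2 F)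
        + (-1 : F) • mx 0 1 1 1 = pv 0 (-1) (-1) := by
      unfold mx pv
      ext (j | j) <;> fin_cases j <;> simp
    rwa [e2] at h3
  have plane0 : ∀ α β : F, pv (0 : Fin 2) α β ∈ AA K :=
    tg_plane 0 (-1) (-1) 1 0 u5 hv (by simp)
  apply tg_chain
  · intro j α β
    fin_cases j
    · exact plane0 α β
    · exact plane1 α β
  · intro j hlt
    fin_cases j
    · exact m0
    · simp at hlt

end Cfsg.Agent.Helper20.SpGen
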