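import Mathlib
import Cfsg.Prelude.Def_ClassicalGeometry
import Cfsg.Prelude.Def_Classical
import Cfsg.Agent.Helper15.SpQa

set_option autoImplicit false

namespace Cfsg.Agent.Helper20.SpQb

variable {F : Type*} [Field F] {d : ℕ}

/-! ### Basic calculus of `sympForm` -/

theorem sf_add_left (u u' v : Fin d ⊕ Fin d → F) :
    Cfsg.sympForm d F (u + u') v = Cfsg.sympForm d F u v + Cfsg.sympForm d F u' v := by
  unfold Cfsg.sympForm
  rw [add_dotProduct]

theorem sf_add_right (u v v' : Fin d ⊕ Fin d → F) :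
    Cfsg.sympForm d F u (v + v') = Cfsg.sympForm d F u v + Cfsg.sympForm d F u v' := by
  unfold Cfsg.sympForm
  rw [Matrix.mulVec_add, dotProduct_add]

theorem sf_eq_sum (u v : Fin d ⊕ Fin d → F) :
    Cfsg.sympForm d F u v =
      ∑ i : Fin d, (u (Sum.inr i) * v (Sum.inl i) - u (Sum.inl i) * v (Sum.inr i)) := by
  unfold Cfsg.sympForm
  simp [Matrix.J, dotProduct, Matrix.mulVec, Fintype.sum_sum_type, Matrix.fromBlocks,
    Matrix.one_apply]
  ring

/-- The bilinear form attached to `sympForm`. -/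
noncomputable def Bs (d : ℕ) (F : Type*) [Field F] :
    LinearMap.BilinForm F (Fin d ⊕ Fin d → F) :=
  Matrix.toBilin' (Matrix.J (Fin d) F)

theorem Bs_apply (u v : Fin d ⊕ Fin d → F) : Bs d F u v = Cfsg.sympForm d F u v := by
  unfold Bs
  rw [Matrix.toBilin'_apply']
  rfl

theorem Bs_nondeg : (Bs d F).Nondegenerate := by
  unfold Bs
  apply LinearMap.BilinForm.nondegenerate_toBilin'_of_det_ne_zero'
  intro h0
  have h1 := Matrix.J_det_mul_J_det (l := Fin d) (R := F)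
  rw [h0, mul_zero] at h1
  exact zero_ne_one h1

/-! ### Forms with polar `sympForm` in characteristic two -/

theorem Q_zero (Q : (Fin d ⊕ Fin d → F) → F) (hsm : ∀ (c : F) (v : Fin d ⊕ Fin d → F), Q (c • v) = c ^ 2 * Q v) : Q 0 = 0 := by
  have h := hsm 0 0
  simpa using h

theorem sf_symm (Q : (Fin d ⊕ Fin d → F) → F)
    (hpol : ∀ u v : Fin d ⊕ Fin d → F, Q (u + v) = Q u + Q v + Cfsg.sympForm d F u v)
    (u v : Fin d ⊕ Fin d → F) : Cfsg.sympForm d F u v = Cfsg.sympForm d F v u := by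
  have h1 := hpol u v
  have h2 := hpol v u
  rw [add_comm v u] at h2
  linear_combination h2 - h1

theorem sf_self (Q : (Fin d ⊕ Fin d → F) → F) (hch : (2 : F) = 0)
    (hsm : ∀ (c : F) (v : Fin d ⊕ Fin d → F), Q (c • v) = c ^ 2 * Q v)
    (hpol : ∀ u v : Fin d ⊕ Fin d → F, Q (u + v) = Q u + Q v + Cfsg.sympForm d F u v)
    (v : Fin d ⊕ Fin d → F) : Cfsg.sympForm d F v v = 0 := by
  have h1 := hpol v v
  have h2 : v + v = 0 := by
    have : v + v = (2 : F) • v := by rw [two_smul]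
    rw [this, hch, zero_smul]
  rw [h2, Q_zero Q hsm] at h1
  linear_combination -h1 - (Q v) * hch

/-- (L4) Two maximal totally singular subspaces, one for `Q` and one for `Q + (sf b ·)^2`,
force `Q b` into the image of `w ↦ w^2 + w`. -/
theorem plus_plus (hch : (2 : F) = 0) (Q : (Fin d ⊕ Fin d → F) → F)
    (_hsm : ∀ (c : F) (v : Fin d ⊕ Fin d → F), Q (c • v) = c ^ 2 * Q v)
    (hpol : ∀ u v : Fin d ⊕ Fin d → F, Q (u + v) = Q u + Q v + Cfsg.sympForm d F u v)
    (b : Fin d ⊕ Fin d → F) (U L : Submodule F (Fin d ⊕ Fin d → F))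
    (hU : ∀ u ∈ U, Q u = 0) (hL : ∀ l ∈ L, Q l + (Cfsg.sympForm d F b l) ^ 2 = 0)
    (hdU : Module.finrank F U = d) (hdL : Module.finrank F L = d) :
    ∃ w : F, w ^ 2 + w = Q b := by
  have hUU : ∀ u ∈ U, ∀ u' ∈ U, Cfsg.sympForm d F u u' = 0 := by
    intro u hu u' hu'
    have h1 := hpol u u'
    rw [hU _ (U.add_mem hu hu'), hU u hu, hU u' hu'] at h1
    linear_combination -h1
  have hLL : ∀ l ∈ L, ∀ l' ∈ L, Cfsg.sympForm d F l l' = 0 := by
    intro l hl l' hl'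
    have h1 := hpol l l'
    have h2 := hL _ (L.add_mem hl hl')
    have h3 := hL l hl
    have h4 := hL l' hl'
    rw [sf_add_right] at h2
    linear_combination -h1 + h2 - h3 - h4 -
      (Cfsg.sympForm d F b l * Cfsg.sympForm d F b l') * hch
  have hb : b ∈ (Bs d F).orthogonal (U ⊓ L) := by
    rw [LinearMap.BilinForm.mem_orthogonal_iff]
    intro n hn
    show Bs d F n b = 0
    rw [Bs_apply, sf_symm Q hpol]
    have h1 := hL n hn.2
    rw [hU n hn.1, zero_add] at h1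
    exact pow_eq_zero_iff (two_ne_zero) |>.mp h1
  have hle : U ⊔ L ≤ (Bs d F).orthogonal (U ⊓ L) := by
    apply sup_le
    · intro u hu
      rw [LinearMap.BilinForm.mem_orthogonal_iff]
      intro n hn
      show Bs d F n u = 0
      rw [Bs_apply]
      exact hUU n hn.1 u hu
    · intro l hl
      rw [LinearMap.BilinForm.mem_orthogonal_iff]
      intro n hn
      show Bs d F n l = 0
      rw [Bs_apply]
      exact hLL n hn.2 l hl
  have h1 := LinearMap.BilinForm.finrank_orthogonal (Bs_nondeg (d := d) (F := F)) (U ⊓ L)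
  have h2 := Submodule.finrank_sup_add_finrank_inf_eq U L
  have h3 : Module.finrank F (Fin d ⊕ Fin d → F) = d + d := by
    rw [Module.finrank_fintype_fun_eq_card]
    simp
  have h4 := Submodule.finrank_le (U ⊓ L)
  have heq : U ⊔ L = (Bs d F).orthogonal (U ⊓ L) := by
    apply Submodule.eq_of_le_of_finrank_eq hle
    omega
  rw [← heq] at hb
  obtain ⟨u, hu, l, hl, rfl⟩ := Submodule.mem_sup.mp hb
  refine ⟨Cfsg.sympForm d F u l, ?_⟩
  have h5 := hpol u l
  have h6 := hL l hl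
  rw [sf_add_left, hLL l hl l hl, add_zero] at h6
  rw [h5, hU u hu]
  linear_combination h6 - (Q l) * hch

/-! ### The plus form -/

theorem plus_smul (c : F) (v : Fin d ⊕ Fin d → F) :
    Cfsg.quadFormPlus d F (c • v) = c ^ 2 * Cfsg.quadFormPlus d F v := by
  unfold Cfsg.quadFormPlus
  simp only [Pi.smul_apply, smul_eq_mul]
  rw [Finset.mul_sum]
  apply Finset.sum_congr rfl
  intro i _
  ring

theorem plus_pol (hch : (2 : F) = 0) (u v : Fin d ⊕ Fin d → F) :
    Cfsg.quadFormPlus d F (u + v) =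
      Cfsg.quadFormPlus d F u + Cfsg.quadFormPlus d F v + Cfsg.sympForm d F u v := by
  rw [sf_eq_sum]
  unfold Cfsg.quadFormPlus
  rw [← Finset.sum_add_distrib, ← Finset.sum_add_distrib]
  apply Finset.sum_congr rfl
  intro i _
  simp only [Pi.add_apply]
  linear_combination (u (Sum.inl i) * v (Sum.inr i)) * hch

/-- The embedding of the first coordinate block. -/
def inlMap (d : ℕ) (F : Type*) [Field F] : (Fin d → F) →ₗ[F] (Fin d ⊕ Fin d → F) where
  toFun u := Sum.elim u 0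
  map_add' u v := by
    funext x
    cases x <;> simp
  map_smul' c u := by
    funext x
    cases x <;> simp

theorem inlMap_inj : Function.Injective (inlMap d F) := by
  intro u v h
  funext i
  have := congrFun h (Sum.inl i)
  simpa [inlMap] using this

theorem plus_inlMap (u : Fin d → F) : Cfsg.quadFormPlus d F (inlMap d F u) = 0 := by
  unfold Cfsg.quadFormPlus
  simp [inlMap]

theorem sf_nondeg (a : Fin d ⊕ Fin d → F) (h : ∀ v, Cfsg.sympForm d F a v = 0) : a = 0 :=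
  (Bs_nondeg (d := d) (F := F)).1 a (fun v => by rw [Bs_apply]; exact h v)

/-- (L5, with L2 as an explicit hypothesis) If `Q ∘ h = Q + (sf b ·)^2` for a symplectic `h`,
then `Q b` lies in the image of `w ↦ w^2 + w`. -/
theorem orbit_pp_aux (hch : (2 : F) = 0)
    (hL2 : ∀ Q₁ Q₂ : (Fin d ⊕ Fin d → F) → F,
      (∀ (c : F) (v : Fin d ⊕ Fin d → F), Q₁ (c • v) = c ^ 2 * Q₁ v) →
      (∀ u v : Fin d ⊕ Fin d → F, Q₁ (u + v) = Q₁ u + Q₁ v + Cfsg.sympForm d F u v) →
      (∀ (c : F) (v : Fin d ⊕ Fin d → F), Q₂ (c • v) = c ^ 2 * Q₂ v) →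
      (∀ u v : Fin d ⊕ Fin d → F, Q₂ (u + v) = Q₂ u + Q₂ v + Cfsg.sympForm d F u v) →
      ∃ b : Fin d ⊕ Fin d → F, ∀ v, Q₂ v = Q₁ v + (Cfsg.sympForm d F b v) ^ 2)
    (Q : (Fin d ⊕ Fin d → F) → F)
    (hsm : ∀ (c : F) (v : Fin d ⊕ Fin d → F), Q (c • v) = c ^ 2 * Q v)
    (hpol : ∀ u v : Fin d ⊕ Fin d → F, Q (u + v) = Q u + Q v + Cfsg.sympForm d F u v)
    (h : GL (Fin d ⊕ Fin d) F) (hh : h ∈ Cfsg.spGL d F) (b : Fin d ⊕ Fin d → F)
    (hb : ∀ v, Q ((h : Matrix (Fin d ⊕ Fin d) (Fin d ⊕ Fin d) F).mulVec v) =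
      Q v + (Cfsg.sympForm d F b v) ^ 2) :
    ∃ w : F, w ^ 2 + w = Q b := by
  have hhsf : ∀ u v : Fin d ⊕ Fin d → F,
      Cfsg.sympForm d F ((h : Matrix (Fin d ⊕ Fin d) (Fin d ⊕ Fin d) F).mulVec u)
        ((h : Matrix (Fin d ⊕ Fin d) (Fin d ⊕ Fin d) F).mulVec v) = Cfsg.sympForm d F u v :=
    fun u v => hh u v
  have hhinv : ∀ v : Fin d ⊕ Fin d → F,
      (h : Matrix (Fin d ⊕ Fin d) (Fin d ⊕ Fin d) F).mulVec
        (((h⁻¹ : GL (Fin d ⊕ Fin d) F) : Matrix (Fin d ⊕ Fin d) (Fin d ⊕ Fin d) F).mulVec v) = v := by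
    intro v
    rw [Matrix.mulVec_mulVec, ← Units.val_mul, mul_inv_cancel, Units.val_one, Matrix.one_mulVec]
  -- the plus form and its transform under h
  have hsmP := plus_smul (F := F) (d := d)
  have hpolP := plus_pol (F := F) (d := d) hch
  have hsmPh : ∀ (c : F) (v : Fin d ⊕ Fin d → F),
      Cfsg.quadFormPlus d F ((h : Matrix (Fin d ⊕ Fin d) (Fin d ⊕ Fin d) F).mulVec (c • v)) =
        c ^ 2 * Cfsg.quadFormPlus d F ((h : Matrix (Fin d ⊕ Fin d) (Fin d ⊕ Fin d) F).mulVec v) := by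
    intro c v
    rw [Matrix.mulVec_smul, hsmP]
  have hpolPh : ∀ u v : Fin d ⊕ Fin d → F,
      Cfsg.quadFormPlus d F ((h : Matrix (Fin d ⊕ Fin d) (Fin d ⊕ Fin d) F).mulVec (u + v)) =
        Cfsg.quadFormPlus d F ((h : Matrix (Fin d ⊕ Fin d) (Fin d ⊕ Fin d) F).mulVec u) +
        Cfsg.quadFormPlus d F ((h : Matrix (Fin d ⊕ Fin d) (Fin d ⊕ Fin d) F).mulVec v) +
        Cfsg.sympForm d F u v := by
    intro u v
    rw [Matrix.mulVec_add, hpolP, hhsf]
  obtain ⟨e, he⟩ := hL2 (Cfsg.quadFormPlus d F) Q hsmP hpolP hsm hpol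
  obtain ⟨c, hc⟩ := hL2 (Cfsg.quadFormPlus d F)
    (fun v => Cfsg.quadFormPlus d F ((h : Matrix (Fin d ⊕ Fin d) (Fin d ⊕ Fin d) F).mulVec v))
    hsmP hpolP hsmPh hpolPh
  -- Q₊ c ∈ ℘ by L4
  obtain ⟨w₀, hw₀⟩ : ∃ w : F, w ^ 2 + w = Cfsg.quadFormPlus d F c := by
    refine plus_plus hch (Cfsg.quadFormPlus d F) hsmP hpolP c
      (LinearMap.range (inlMap d F))
      (LinearMap.range ((Matrix.toLin' ((h⁻¹ : GL (Fin d ⊕ Fin d) F) :
        Matrix (Fin d ⊕ Fin d) (Fin d ⊕ Fin d) F)).comp (inlMap d F))) ?_ ?_ ?_ ?_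
    · rintro _ ⟨u, rfl⟩
      exact plus_inlMap u
    · rintro _ ⟨u, rfl⟩
      have h1 := hc (((h⁻¹ : GL (Fin d ⊕ Fin d) F) :
        Matrix (Fin d ⊕ Fin d) (Fin d ⊕ Fin d) F).mulVec (inlMap d F u))
      rw [hhinv, plus_inlMap] at h1
      simp only [LinearMap.comp_apply, Matrix.toLin'_apply]
      exact h1.symm
    · rw [LinearMap.finrank_range_of_inj inlMap_inj, Module.finrank_fintype_fun_eq_card,
        Fintype.card_fin]
    · rw [LinearMap.finrank_range_of_inj, Module.finrank_fintype_fun_eq_card, Fintype.card_fin]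
      · intro u v huv
        simp only [LinearMap.comp_apply, Matrix.toLin'_apply] at huv
        apply inlMap_inj
        have h1 := congrArg (fun x => (h : Matrix (Fin d ⊕ Fin d) (Fin d ⊕ Fin d) F).mulVec x) huv
        beta_reduce at h1
        rw [hhinv, hhinv] at h1
        exact h1
  -- e' = h⁻¹ e
  set e' : Fin d ⊕ Fin d → F :=
    ((h⁻¹ : GL (Fin d ⊕ Fin d) F) : Matrix (Fin d ⊕ Fin d) (Fin d ⊕ Fin d) F).mulVec e with he'
  have hhe' : (h : Matrix (Fin d ⊕ Fin d) (Fin d ⊕ Fin d) F).mulVec e' = e := hhinv e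
  have hsfe : ∀ v : Fin d ⊕ Fin d → F,
      Cfsg.sympForm d F e ((h : Matrix (Fin d ⊕ Fin d) (Fin d ⊕ Fin d) F).mulVec v) =
        Cfsg.sympForm d F e' v := by
    intro v
    rw [← hhsf e' v, hhe']
  -- b = c + e + e'
  have hzero : ∀ v : Fin d ⊕ Fin d → F, Cfsg.sympForm d F (c + e' + e + b) v = 0 := by
    intro v
    have h1 := hb v
    rw [he ((h : Matrix (Fin d ⊕ Fin d) (Fin d ⊕ Fin d) F).mulVec v), hc v, he v, hsfe] at h1
    rw [sf_add_left, sf_add_left, sf_add_left]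
    have h2 : (Cfsg.sympForm d F c v + Cfsg.sympForm d F e' v + Cfsg.sympForm d F e v +
        Cfsg.sympForm d F b v) ^ 2 = 0 := by
      linear_combination h1 + (Cfsg.sympForm d F c v * Cfsg.sympForm d F e' v +
        Cfsg.sympForm d F c v * Cfsg.sympForm d F e v +
        Cfsg.sympForm d F c v * Cfsg.sympForm d F b v +
        Cfsg.sympForm d F e' v * Cfsg.sympForm d F e v +
        Cfsg.sympForm d F e' v * Cfsg.sympForm d F b v +
        Cfsg.sympForm d F e v * Cfsg.sympForm d F b v +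
        Cfsg.sympForm d F e v ^ 2 + Cfsg.sympForm d F b v ^ 2) * hch
    exact pow_eq_zero_iff (two_ne_zero) |>.mp h2
  have hsum : c + e' + e + b = 0 := sf_nondeg _ hzero
  have hbb : b = c + e + e' := by
    have h2 : ∀ x : Fin d ⊕ Fin d → F, x + x = 0 := by
      intro x
      have : x + x = (2 : F) • x := by rw [two_smul]
      rw [this, hch, zero_smul]
    have h3 : b = -(c + e' + e) := by
      rw [eq_neg_iff_add_eq_zero, add_comm]
      exact hsum
    have h4 : -(c + e' + e) = c + e' + e := neg_eq_of_add_eq_zero_left (h2 _)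
    rw [h3, h4]
    abel
  subst hbb
  have h1 := he (c + e + e')
  have h2 := hpolP (c + e) e'
  have h3 := hpolP c e
  have h4 := sf_add_left c e e'
  have h5 : Cfsg.sympForm d F e (c + e + e') =
      Cfsg.sympForm d F c e + Cfsg.sympForm d F e e' := by
    rw [sf_add_right, sf_add_right, sf_self (Cfsg.quadFormPlus d F) hch hsmP hpolP e, add_zero,
      sf_symm (Cfsg.quadFormPlus d F) hpolP e c]
  have hE := hc e'
  rw [hhe'] at hE
  refine ⟨w₀ + Cfsg.sympForm d F c e' + Cfsg.sympForm d F c e + Cfsg.sympForm d F e e', ?_⟩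
  rw [h1, h2, h3, h4, h5]
  linear_combination hw₀ - hE + (w₀ * Cfsg.sympForm d F c e' + w₀ * Cfsg.sympForm d F c e +
    w₀ * Cfsg.sympForm d F e e' + Cfsg.sympForm d F c e' * Cfsg.sympForm d F c e +
    Cfsg.sympForm d F c e' * Cfsg.sympForm d F e e' - Cfsg.quadFormPlus d F e') * hch

/-- (L5) If `Q ∘ h = Q + (sf b ·)^2` for a symplectic `h`, then `Q b` lies in the image of
`w ↦ w^2 + w` (finite field of characteristic two). -/
theorem orbit_pp [Fintype F] (hch : (2 : F) = 0)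
    (Q : (Fin d ⊕ Fin d → F) → F)
    (hsm : ∀ (c : F) (v : Fin d ⊕ Fin d → F), Q (c • v) = c ^ 2 * Q v)
    (hpol : ∀ u v : Fin d ⊕ Fin d → F, Q (u + v) = Q u + Q v + Cfsg.sympForm d F u v)
    (h : GL (Fin d ⊕ Fin d) F) (hh : h ∈ Cfsg.spGL d F) (b : Fin d ⊕ Fin d → F)
    (hb : ∀ v, Q ((h : Matrix (Fin d ⊕ Fin d) (Fin d ⊕ Fin d) F).mulVec v) =
      Q v + (Cfsg.sympForm d F b v) ^ 2) :
    ∃ w : F, w ^ 2 + w = Q b :=
  orbit_pp_aux hch
    (fun Q₁ Q₂ h1 h2 h3 h4 => Cfsg.Agent.Helper15.SpQa.exists_diff hch Q₁ Q₂ h1 h2 h3 h4)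
    Q hsm hpol h hh b hb

end Cfsg.Agent.Helper20.SpQb
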