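import Mathlib
import Cfsg.Agent.Helper20.SLnGen3

/-!
# Steinberg's pair of generators of `SL_{n+1}(K)`

`x = 1 + E₁₂`, `w` the monomial matrix with entries `1` at `(i, i+1)` and `(-1)^n` at `(n+1, 1)`,
`h = diag(k, k⁻¹, 1, …, 1)` with `k` a generator of `Kˣ`.
-/

set_option autoImplicit false

namespace Cfsg.Agent.Helper20.SteinGen

open Matrix Cfsg.Agent.Helper20.SLnGen

section general

variable {F : Type*} [Field F] {ι : Type*} [DecidableEq ι] [Fintype ι]

theorem inH_of_mul_eq {H : Subgroup (Matrix.SpecialLinearGroup ι F)} {A B M : Matrix ι ι F}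
    (hA : InH H A) (hB : InH H B) (h : A = M * B) : InH H M := by
  obtain ⟨a, ha, rfl⟩ := hA
  obtain ⟨b, hb, rfl⟩ := hB
  refine ⟨a * b⁻¹, H.mul_mem ha (H.inv_mem hb), ?_⟩
  rw [Matrix.SpecialLinearGroup.coe_mul, h, mul_assoc, ← Matrix.SpecialLinearGroup.coe_mul,
    mul_inv_cancel, Matrix.SpecialLinearGroup.coe_one, mul_one]

/-- From one non-trivial elementary transvection and closure under multiplication by a
generating set of scalars, get the full root subgroup. -/
theorem all_of_scal [Finite F] (H : Subgroup (Matrix.SpecialLinearGroup ι F)) (i j : ι)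
    (hij : i ≠ j) (S : Set F) (hcl : Subfield.closure S = ⊤) (c : F) (hc : c ≠ 0)
    (hX1 : InH H (1 + vecMulVec (Pi.single i c) (Pi.single j (1 : F))))
    (hS : ∀ m ∈ S, ∀ t : F, InH H (1 + vecMulVec (Pi.single i t) (Pi.single j (1 : F))) →
      InH H (1 + vecMulVec (Pi.single i (m * t)) (Pi.single j (1 : F)))) :
    ∀ t : F, InH H (1 + vecMulVec (Pi.single i t) (Pi.single j (1 : F))) := by
  have hd : ∀ t : F, Pi.single j (1 : F) ⬝ᵥ Pi.single i t = 0 := by
    intro t
    rw [single_dotProduct, Pi.single_eq_of_ne hij.symm, mul_zero]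
  have key := Cfsg.Agent.Helper20.SL3Gen.scal (F := F) (V := F)
    (fun t => InH H (1 + vecMulVec (Pi.single i t) (Pi.single j (1 : F))))
    (by
      show InH H (1 + vecMulVec (Pi.single i (0 : F)) (Pi.single j (1 : F)))
      rw [Pi.single_zero]
      exact inH_tv_zero _)
    (by
      intro v w hv hw
      show InH H (1 + vecMulVec (Pi.single i (v + w)) (Pi.single j (1 : F)))
      rw [Pi.single_add]
      exact inH_tv_add hv hw (hd w))
    (by
      intro v hv
      show InH H (1 + vecMulVec (Pi.single i (-v)) (Pi.single j (1 : F)))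
      rw [Pi.single_neg]
      exact inH_tv_neg hv (hd v))
    S
    (by
      intro m hm v hv
      exact hS m hm v hv)
    hcl
  intro t
  have h := key (t / c) c hX1
  rw [smul_eq_mul, div_mul_cancel₀ t hc] at h
  exact h

end general

section stein

variable {F : Type*} [Field F] {n : ℕ}

/-- The monomial matrix `w`. -/
def Wm (F : Type*) [Field F] (n : ℕ) : Matrix (Fin (n + 1)) (Fin (n + 1)) F :=
  Matrix.of (fun i j => if j.val = i.val + 1 then (1 : F)
    else if i.val = n ∧ j.val = 0 then (-1) ^ n else 0)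

theorem Wm_eq (iL i0 : Fin (n + 1)) (hL : iL.val = n) (h0 : i0.val = 0) :
    Wm F n = Nm F (n + 1)
      + ((-1 : F) ^ n) • vecMulVec (Pi.single iL (1 : F)) (Pi.single i0 (1 : F)) := by
  ext i j
  rw [Matrix.add_apply, Matrix.smul_apply, vecMulVec_apply, Pi.single_apply, Pi.single_apply]
  simp only [Wm, Nm, of_apply]
  have e1 : (i = iL) ↔ i.val = n := by rw [Fin.ext_iff, hL]
  have e2 : (j = i0) ↔ j.val = 0 := by rw [Fin.ext_iff, h0]
  by_cases h1 : j.val = i.val + 1
  · have hj : ¬ (j = i0) := fun h => by rw [e2] at h; omega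
    rw [if_pos h1, if_pos h1, if_neg hj, mul_zero, smul_zero, add_zero]
  · rw [if_neg h1, if_neg h1, zero_add]
    by_cases h2 : i.val = n
    · by_cases h3 : j.val = 0
      · rw [if_pos ⟨h2, h3⟩, if_pos (e1.2 h2), if_pos (e2.2 h3), mul_one, smul_eq_mul, mul_one]
      · have hj : ¬ (j = i0) := fun h => h3 (e2.1 h)
        rw [if_neg (fun h => h3 h.2), if_neg hj, mul_zero, smul_zero]
    · have hi : ¬ (i = iL) := fun h => h2 (e1.1 h)
      rw [if_neg (fun h => h2 h.1), if_neg hi, zero_mul, smul_zero]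

theorem Wm_mulVec_single (iL i0 : Fin (n + 1)) (hL : iL.val = n) (h0 : i0.val = 0)
    (j j' : Fin (n + 1)) (h : j.val = j'.val + 1) (a : F) :
    Wm F n *ᵥ Pi.single j a = Pi.single j' a := by
  rw [Wm_eq iL i0 hL h0, add_mulVec, Matrix.smul_mulVec, E_mulVec, Nm_mulVec_single j j' h,
    Pi.single_eq_of_ne (fun hh => by have := congrArg Fin.val hh; omega : i0 ≠ j),
    Pi.single_zero, smul_zero, add_zero]

theorem Wm_mulVec_single_zero (iL i0 : Fin (n + 1)) (hL : iL.val = n) (h0 : i0.val = 0) (a : F) :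
    Wm F n *ᵥ Pi.single i0 a = Pi.single iL ((-1) ^ n * a) := by
  rw [Wm_eq iL i0 hL h0, add_mulVec, Matrix.smul_mulVec, E_mulVec, Nm_mulVec_single_zero i0 h0,
    zero_add, Pi.single_eq_same, ← Pi.single_smul, smul_eq_mul]

theorem single_vecMul_Wm (iL i0 : Fin (n + 1)) (hL : iL.val = n) (h0 : i0.val = 0)
    (i i' : Fin (n + 1)) (h : i'.val = i.val + 1) (a : F) :
    Pi.single i a ᵥ* Wm F n = Pi.single i' a := by
  rw [Wm_eq iL i0 hL h0, vecMul_add, Matrix.vecMul_smul, vecMul_E, single_vecMul_Nm i i' h,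
    Pi.single_eq_of_ne (fun hh => by have := congrArg Fin.val hh; have := i'.isLt; omega : iL ≠ i),
    Pi.single_zero, smul_zero, add_zero]

theorem single_vecMul_Wm_last (iL i0 : Fin (n + 1)) (hL : iL.val = n) (h0 : i0.val = 0) (a : F) :
    Pi.single iL a ᵥ* Wm F n = Pi.single i0 ((-1) ^ n * a) := by
  rw [Wm_eq iL i0 hL h0, vecMul_add, Matrix.vecMul_smul, vecMul_E,
    single_vecMul_Nm_last iL (by omega), zero_add, Pi.single_eq_same, ← Pi.single_smul,
    smul_eq_mul]

/-- A subgroup containing the monomial matrix `w` and the root subgroup `x_{12}(t)` is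
everything. -/
theorem core (hn : 1 ≤ n) (i0 i1 iL : Fin (n + 1)) (h0 : i0.val = 0) (h1 : i1.val = 1)
    (hL : iL.val = n) (H : Subgroup (Matrix.SpecialLinearGroup (Fin (n + 1)) F))
    (hW : InH H (Wm F n))
    (hX : ∀ t : F, InH H (1 + vecMulVec (Pi.single i0 t) (Pi.single i1 (1 : F)))) : H = ⊤ := by
  have hε : ((-1 : F) ^ n) * ((-1 : F) ^ n) = 1 := by
    rw [← mul_pow, neg_mul_neg, one_mul, one_pow]
  have conj1 : ∀ i j i' j' : Fin (n + 1), i.val = i'.val + 1 → j.val = j'.val + 1 →
      (∀ t : F, InH H (1 + vecMulVec (Pi.single i t) (Pi.single j (1 : F)))) →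
      ∀ t : F, InH H (1 + vecMulVec (Pi.single i' t) (Pi.single j' (1 : F))) := by
    intro i j i' j' hi hj hP t
    have h := inH_tv_conj hW (hP t) (φ' := Pi.single j' (1 : F))
      (single_vecMul_Wm iL i0 hL h0 j' j hj 1)
    rw [Wm_mulVec_single iL i0 hL h0 i i' hi] at h
    exact h
  have conj2 : ∀ j j' : Fin (n + 1), j.val = j'.val + 1 →
      (∀ t : F, InH H (1 + vecMulVec (Pi.single i0 t) (Pi.single j (1 : F)))) →
      ∀ t : F, InH H (1 + vecMulVec (Pi.single iL t) (Pi.single j' (1 : F))) := by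
    intro j j' hj hP t
    have h := inH_tv_conj hW (hP ((-1) ^ n * t)) (φ' := Pi.single j' (1 : F))
      (single_vecMul_Wm iL i0 hL h0 j' j hj 1)
    rw [Wm_mulVec_single_zero iL i0 hL h0, ← mul_assoc, hε, one_mul] at h
    exact h
  have conj3 : ∀ i i' : Fin (n + 1), i.val = i'.val + 1 →
      (∀ t : F, InH H (1 + vecMulVec (Pi.single i t) (Pi.single i0 (1 : F)))) →
      ∀ t : F, InH H (1 + vecMulVec (Pi.single i' t) (Pi.single iL (1 : F))) := by
    intro i i' hi hP t
    have h := inH_tv_conj hW (hP ((-1) ^ n * t)) (φ' := Pi.single iL ((-1 : F) ^ n))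
      (by rw [single_vecMul_Wm_last iL i0 hL h0, hε])
    rw [Wm_mulVec_single iL i0 hL h0 i i' hi] at h
    have e : vecMulVec (Pi.single i' ((-1 : F) ^ n * t)) (Pi.single iL ((-1 : F) ^ n))
        = vecMulVec (Pi.single i' t) (Pi.single iL (1 : F)) := by
      ext a b
      rw [vecMulVec_apply, vecMulVec_apply, Pi.single_apply, Pi.single_apply, Pi.single_apply,
        Pi.single_apply]
      split_ifs <;> first | ring1 | linear_combination t * hε
    rw [e] at h
    exact h
  have comm : ∀ i j k : Fin (n + 1), i ≠ j → j ≠ k → i ≠ k →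
      (∀ t : F, InH H (1 + vecMulVec (Pi.single i t) (Pi.single j (1 : F)))) →
      (∀ t : F, InH H (1 + vecMulVec (Pi.single j t) (Pi.single k (1 : F)))) →
      ∀ t : F, InH H (1 + vecMulVec (Pi.single i t) (Pi.single k (1 : F))) := by
    intro i j k hij hjk hik hP hQ t
    have h := inH_tv_comm (hP t) (hQ 1)
      (by rw [single_dotProduct, Pi.single_eq_of_ne hik.symm, mul_zero])
      (by rw [single_dotProduct, Pi.single_eq_of_ne hij.symm, mul_zero])
      (by rw [single_dotProduct, Pi.single_eq_of_ne hjk.symm, mul_zero])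
    rw [single_dotProduct, Pi.single_eq_same, mul_one, one_smul] at h
    exact h
  have PL0 : ∀ t : F, InH H (1 + vecMulVec (Pi.single iL t) (Pi.single i0 (1 : F))) :=
    conj2 i1 i0 (by omega) hX
  have SA : ∀ k : ℕ, ∀ i j : Fin (n + 1), i.val + k + 1 = n → j.val = i.val + 1 →
      ∀ t : F, InH H (1 + vecMulVec (Pi.single i t) (Pi.single j (1 : F))) := by
    intro k
    induction k with
    | zero =>
      intro i j hi hj
      have : j = iL := Fin.ext (by omega)
      rw [this]
      exact conj3 iL i (by omega) PL0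
    | succ k ih =>
      intro i j hi hj
      obtain ⟨i', hi'⟩ : ∃ i' : Fin (n + 1), i'.val = i.val + 1 := ⟨⟨i.val + 1, by omega⟩, rfl⟩
      obtain ⟨j', hj'⟩ : ∃ j' : Fin (n + 1), j'.val = j.val + 1 := ⟨⟨j.val + 1, by omega⟩, rfl⟩
      exact conj1 i' j' i j hi' hj' (ih i' j' (by omega) (by omega))
  have SC : ∀ d : ℕ, ∀ i j : Fin (n + 1), j.val = i.val + d + 1 →
      ∀ t : F, InH H (1 + vecMulVec (Pi.single i t) (Pi.single j (1 : F))) := by
    intro d
    induction d with
    | zero =>
      intro i j hj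
      exact SA (n - 1 - i.val) i j (by have := j.isLt; omega) (by omega)
    | succ d ih =>
      intro i j hj
      obtain ⟨m, hm⟩ : ∃ m : Fin (n + 1), m.val = i.val + 1 :=
        ⟨⟨i.val + 1, by have := j.isLt; omega⟩, rfl⟩
      exact comm i m j (fun h => by have := congrArg Fin.val h; omega)
        (fun h => by have := congrArg Fin.val h; omega)
        (fun h => by have := congrArg Fin.val h; omega)
        (SA (n - 1 - i.val) i m (by have := j.isLt; omega) hm) (ih m j (by omega))
  have Pup : ∀ i j : Fin (n + 1), i.val < j.val →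
      ∀ t : F, InH H (1 + vecMulVec (Pi.single i t) (Pi.single j (1 : F))) := by
    intro i j hij
    exact SC (j.val - i.val - 1) i j (by omega)
  have PD1 : ∀ i : Fin (n + 1), 0 < i.val →
      ∀ t : F, InH H (1 + vecMulVec (Pi.single i t) (Pi.single i0 (1 : F))) := by
    intro i hi
    by_cases hiL : i = iL
    · rw [hiL]
      exact PL0
    · have hlt : i.val < iL.val := by
        have := i.isLt
        have : i.val ≠ iL.val := fun h => hiL (Fin.ext h)
        omega
      exact comm i iL i0 hiL (fun h => by have := congrArg Fin.val h; omega)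
        (fun h => by have := congrArg Fin.val h; omega) (Pup i iL hlt) PL0
  have Pall : ∀ i j : Fin (n + 1), i ≠ j →
      ∀ t : F, InH H (1 + vecMulVec (Pi.single i t) (Pi.single j (1 : F))) := by
    intro i j hij
    have hne : i.val ≠ j.val := fun h => hij (Fin.ext h)
    by_cases hlt : i.val < j.val
    · exact Pup i j hlt
    · by_cases hj0 : j.val = 0
      · have : j = i0 := Fin.ext (by omega)
        rw [this]
        exact PD1 i (by omega)
      · exact comm i i0 j (fun h => by have := congrArg Fin.val h; omega)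
          (fun h => by have := congrArg Fin.val h; omega) hij (PD1 i (by omega))
          (Pup i0 j (by omega))
  haveI : Nontrivial (Fin (n + 1)) := Fin.nontrivial_iff_two_le.2 (by omega)
  apply Cfsg.Agent.Helper2.SLGen.eq_top_of_transvection_mem
  intro i j hij a
  obtain ⟨x, hx, hxm⟩ := Pall i j hij a
  have e : x = Matrix.SpecialLinearGroup.transvection hij a := by
    apply Subtype.ext
    rw [hxm, Matrix.SpecialLinearGroup.transvection_coe, single_eq_vecMulVec]
  rw [← e]
  exact hx

/-- `x` and `w` generate `SL_{n+1}(K)` over a prime field of order at most `3`. -/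
theorem small_field [Fintype F] (hK : Fintype.card F ≤ 3) (hn : 1 ≤ n)
    (x w : Matrix.SpecialLinearGroup (Fin (n + 1)) F)
    (hx : (x : Matrix (Fin (n + 1)) (Fin (n + 1)) F)
      = Matrix.transvection (0 : Fin (n + 1)) (1 : Fin (n + 1)) 1)
    (hw : (w : Matrix (Fin (n + 1)) (Fin (n + 1)) F) = Wm F n) :
    Subgroup.closure ({x, w} : Set (Matrix.SpecialLinearGroup (Fin (n + 1)) F)) = ⊤ := by
  classical
  obtain ⟨iL, hL⟩ : ∃ i : Fin (n + 1), i.val = n := ⟨⟨n, by omega⟩, rfl⟩
  have h0 : (0 : Fin (n + 1)).val = 0 := rfl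
  have h1 : (1 : Fin (n + 1)).val = 1 := by
    rw [Fin.val_one']
    exact Nat.mod_eq_of_lt (by omega)
  have h01 : (0 : Fin (n + 1)) ≠ 1 := fun h => by
    have := congrArg Fin.val h
    omega
  obtain ⟨H, hH⟩ : ∃ H : Subgroup (Matrix.SpecialLinearGroup (Fin (n + 1)) F),
      H = Subgroup.closure ({x, w} : Set (Matrix.SpecialLinearGroup (Fin (n + 1)) F)) := ⟨_, rfl⟩
  rw [← hH]
  have hxH : x ∈ H := by
    rw [hH]
    exact Subgroup.subset_closure (Set.mem_insert _ _)
  have hwH : w ∈ H := by
    rw [hH]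
    exact Subgroup.subset_closure (Set.mem_insert_of_mem _ rfl)
  have hp : (Fintype.card F).Prime := by
    have h2 : 1 < Fintype.card F := Fintype.one_lt_card
    have h3 : Fintype.card F = 2 ∨ Fintype.card F = 3 := by omega
    rcases h3 with h3 | h3
    · rw [h3]
      exact Nat.prime_two
    · rw [h3]
      exact Nat.prime_three
  have hcl : Subfield.closure (∅ : Set F) = ⊤ := Cfsg.Agent.Helper20.SL3Gen.prime_closure hp ∅
  have hX1 : InH H (1 + vecMulVec (Pi.single (0 : Fin (n + 1)) (1 : F))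
      (Pi.single (1 : Fin (n + 1)) (1 : F))) := by
    refine ⟨x, hxH, ?_⟩
    rw [hx, Matrix.transvection, single_eq_vecMulVec]
  have hX := all_of_scal H (0 : Fin (n + 1)) 1 h01 ∅ hcl 1 one_ne_zero hX1
    (fun m hm => absurd hm (Set.notMem_empty m))
  exact core hn 0 1 iL h0 h1 hL H ⟨w, hwH, hw⟩ hX

end stein

end Cfsg.Agent.Helper20.SteinGen
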