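import Mathlib
import Cfsg.Agent.Helper20.SteinGen

/-!
# Steinberg's pair of generators of `SL_{n+1}(K)`, `|K| > 3`

`h = diag(k, k⁻¹, 1, …, 1)` and `x · w` generate `SL_{n+1}(K)`.
-/

set_option autoImplicit false

namespace Cfsg.Agent.Helper20.SteinGen

open Matrix Cfsg.Agent.Helper20.SLnGen

section big

variable {F : Type*} [Field F]

/-- The square of a generator of the multiplicative group generates the field. -/
theorem closure_sq_gen [Fintype F] (k : Fˣ) (hk : ∀ u : Fˣ, u ∈ Subgroup.zpowers k) :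
    Subfield.closure ({(k : F) * (k : F)} : Set F) = ⊤ := by
  classical
  obtain ⟨L, hL⟩ : ∃ L : Subfield F, L = Subfield.closure ({(k : F) * (k : F)} : Set F) :=
    ⟨_, rfl⟩
  rw [← hL]
  have hmem : (k : F) * (k : F) ∈ L := by
    rw [hL]
    exact Subfield.subset_closure rfl
  haveI : Fintype L := Fintype.ofFinite L
  have hcard : Fintype.card F = Fintype.card L ^ Module.finrank L F := Module.card_eq_pow_finrank
  have hQ : 2 ≤ Fintype.card L := Fintype.one_lt_card
  have hq : 2 ≤ Fintype.card F := Fintype.one_lt_card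
  have hord : orderOf k = Fintype.card F - 1 := by
    rw [orderOf_eq_card_of_forall_mem_zpowers hk, Nat.card_eq_fintype_card, Fintype.card_units]
  have hpow : ((k : F) * (k : F)) ^ (Fintype.card L - 1) = 1 := by
    have hne : (⟨(k : F) * (k : F), hmem⟩ : L) ≠ 0 := by
      intro h
      have h2 := congrArg Subtype.val h
      exact mul_ne_zero k.ne_zero k.ne_zero h2
    have h3 := FiniteField.pow_card_sub_one_eq_one (⟨(k : F) * (k : F), hmem⟩ : L) hne
    have h4 := congrArg Subtype.val h3
    exact h4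
  have hdvd : Fintype.card F - 1 ∣ 2 * (Fintype.card L - 1) := by
    rw [← hord]
    apply orderOf_dvd_of_pow_eq_one
    apply Units.ext
    rw [Units.val_pow_eq_pow_val, Units.val_one, pow_mul, pow_two]
    exact hpow
  have hm0 : Module.finrank L F ≠ 0 := by
    intro h0
    rw [h0, pow_zero] at hcard
    omega
  have hm1 : Module.finrank L F = 1 := by
    by_contra hne
    have hm2 : 2 ≤ Module.finrank L F := by omega
    have h1 : Fintype.card L ^ 2 ≤ Fintype.card F := by
      rw [hcard]
      exact Nat.pow_le_pow_right (by omega) hm2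
    have h2 : Fintype.card F - 1 ≤ 2 * (Fintype.card L - 1) := Nat.le_of_dvd (by omega) hdvd
    have h3 : Fintype.card F + 1 ≤ 2 * Fintype.card L := by omega
    nlinarith
  have h1 : Fintype.card L = Fintype.card F := by rw [hcard, hm1, pow_one]
  have hbij : Function.Bijective (Subtype.val : L → F) :=
    (Fintype.bijective_iff_injective_and_card _).2 ⟨Subtype.val_injective, h1⟩
  rw [eq_top_iff]
  intro x _
  obtain ⟨y, rfl⟩ := hbij.2 x
  exact y.2

variable {ι : Type*} [DecidableEq ι] [Fintype ι]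

theorem DE_mul (i0 i1 : ι) (h01 : i0 ≠ i1) (a b : ι → F) (s t : F) :
    (diagonal a + s • vecMulVec (Pi.single i0 (1 : F)) (Pi.single i1 (1 : F)))
        * (diagonal b + t • vecMulVec (Pi.single i0 (1 : F)) (Pi.single i1 (1 : F)))
      = diagonal (fun i => a i * b i)
        + (a i0 * t + s * b i1) • vecMulVec (Pi.single i0 (1 : F)) (Pi.single i1 (1 : F)) := by
  have hEE : vecMulVec (Pi.single i0 (1 : F)) (Pi.single i1 (1 : F))
      * vecMulVec (Pi.single i0 (1 : F)) (Pi.single i1 (1 : F)) = 0 := by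
    rw [vecMulVec_mul_vecMulVec, single_dotProduct, Pi.single_eq_of_ne h01.symm, mul_zero,
      zero_smul, vecMulVec_zero]
  have hDE : diagonal a * vecMulVec (Pi.single i0 (1 : F)) (Pi.single i1 (1 : F))
      = a i0 • vecMulVec (Pi.single i0 (1 : F)) (Pi.single i1 (1 : F)) := by
    rw [mul_vecMulVec, diagonal_mulVec_single, ← smul_vecMulVec, ← Pi.single_smul, smul_eq_mul]
  have hED : vecMulVec (Pi.single i0 (1 : F)) (Pi.single i1 (1 : F)) * diagonal b
      = b i1 • vecMulVec (Pi.single i0 (1 : F)) (Pi.single i1 (1 : F)) := by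
    rw [vecMulVec_mul, single_vecMul_diagonal, one_mul, ← vecMulVec_smul, ← Pi.single_smul,
      smul_eq_mul, mul_one]
  rw [add_mul, mul_add, mul_add, diagonal_mul_diagonal, Matrix.mul_smul, Matrix.smul_mul,
    Matrix.smul_mul, Matrix.mul_smul, hDE, hED, hEE, smul_zero, smul_zero, add_zero, smul_smul,
    smul_smul, add_assoc, ← add_smul, mul_comm t]

/-- `h = diag(k, k⁻¹, 1, …)` and `x · w` generate `SL_{n+1}(K)` when `|K| > 3`. -/
theorem big_field [Fintype F] {n : ℕ} (hK : 3 < Fintype.card F) (hn : 1 ≤ n)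
    (k : Fˣ) (hk : ∀ u : Fˣ, u ∈ Subgroup.zpowers k)
    (h x w : Matrix.SpecialLinearGroup (Fin (n + 1)) F)
    (hh : (h : Matrix (Fin (n + 1)) (Fin (n + 1)) F) =
      Matrix.diagonal (fun i => if i.val = 0 then (k : F)
        else if i.val = 1 then ((k⁻¹ : Fˣ) : F) else 1))
    (hx : (x : Matrix (Fin (n + 1)) (Fin (n + 1)) F)
      = Matrix.transvection (0 : Fin (n + 1)) (1 : Fin (n + 1)) 1)
    (hw : (w : Matrix (Fin (n + 1)) (Fin (n + 1)) F) = Wm F n) :
    Subgroup.closure ({h, x * w} : Set (Matrix.SpecialLinearGroup (Fin (n + 1)) F)) = ⊤ := by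
  classical
  obtain ⟨iL, hL⟩ : ∃ i : Fin (n + 1), i.val = n := ⟨⟨n, by omega⟩, rfl⟩
  have h0 : (0 : Fin (n + 1)).val = 0 := rfl
  have h1 : (1 : Fin (n + 1)).val = 1 := by
    rw [Fin.val_one']
    exact Nat.mod_eq_of_lt (by omega)
  have h01 : (0 : Fin (n + 1)) ≠ 1 := fun h => by
    have := congrArg Fin.val h
    omega
  obtain ⟨H, hH⟩ : ∃ H : Subgroup (Matrix.SpecialLinearGroup (Fin (n + 1)) F),
      H = Subgroup.closure ({h, x * w} : Set (Matrix.SpecialLinearGroup (Fin (n + 1)) F)) :=
    ⟨_, rfl⟩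
  rw [← hH]
  have hhH : h ∈ H := by
    rw [hH]
    exact Subgroup.subset_closure (Set.mem_insert _ _)
  have hgH : x * w ∈ H := by
    rw [hH]
    exact Subgroup.subset_closure (Set.mem_insert_of_mem _ rfl)
  have hord : orderOf k = Fintype.card F - 1 := by
    rw [orderOf_eq_card_of_forall_mem_zpowers hk, Nat.card_eq_fintype_card, Fintype.card_units]
  have hcl : Subfield.closure ({(k : F) * (k : F)} : Set F) = ⊤ := closure_sq_gen k hk
  obtain ⟨kk, hkk⟩ : ∃ kk : F, kk = (k : F) := ⟨_, rfl⟩
  obtain ⟨ki, hki⟩ : ∃ ki : F, ki = ((k⁻¹ : Fˣ) : F) := ⟨_, rfl⟩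
  have hkki : kk * ki = 1 := by
    rw [hkk, hki, ← Units.val_mul, mul_inv_cancel, Units.val_one]
  have hk1 : kk ≠ 1 := by
    intro h1'
    have e : k ^ 1 = 1 := by
      apply Units.ext
      rw [pow_one, ← hkk, h1', Units.val_one]
    have h2 := orderOf_dvd_of_pow_eq_one e
    rw [hord] at h2
    have h3 := Nat.le_of_dvd (by omega) h2
    omega
  have hk2 : kk * kk ≠ 1 := by
    intro h2'
    have e : k ^ 2 = 1 := by
      apply Units.ext
      rw [pow_two, Units.val_mul, ← hkk, h2', Units.val_one]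
    have h2 := orderOf_dvd_of_pow_eq_one e
    rw [hord] at h2
    have h3 := Nat.le_of_dvd (by omega) h2
    omega
  rw [← hkk, ← hki] at hh
  rw [← hkk] at hcl
  obtain ⟨D, hD⟩ : ∃ D : Fin (n + 1) → F,
      D = (fun i : Fin (n + 1) => if i.val = 0 then kk else if i.val = 1 then ki else 1) :=
    ⟨_, rfl⟩
  obtain ⟨d, hd⟩ : ∃ d : Fin (n + 1) → F,
      d = (fun i : Fin (n + 1) => if i.val = 0 then ki else if i.val = n then kk else 1) :=
    ⟨_, rfl⟩
  rw [← hD] at hh
  have hD0 : D 0 = kk := by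
    rw [hD]
    show (if (0 : Fin (n + 1)).val = 0 then kk else if (0 : Fin (n + 1)).val = 1 then ki else 1)
      = kk
    rw [if_pos h0]
  have hD1 : D 1 = ki := by
    rw [hD]
    show (if (1 : Fin (n + 1)).val = 0 then kk else if (1 : Fin (n + 1)).val = 1 then ki else 1)
      = ki
    rw [h1, if_neg one_ne_zero, if_pos rfl]
  have hd0 : d 0 = ki := by
    rw [hd]
    show (if (0 : Fin (n + 1)).val = 0 then ki else if (0 : Fin (n + 1)).val = n then kk else 1)
      = ki
    rw [if_pos h0]
  have hd1 : d 1 = kk ∨ d 1 = 1 := by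
    have e : d 1 = if 1 = n then kk else 1 := by
      rw [hd]
      show (if (1 : Fin (n + 1)).val = 0 then ki else if (1 : Fin (n + 1)).val = n then kk
        else 1) = _
      rw [h1, if_neg one_ne_zero]
    rw [e]
    by_cases hn1 : 1 = n
    · left
      rw [if_pos hn1]
    · right
      rw [if_neg hn1]
  have hWD : Wm F n * diagonal D = diagonal d * Wm F n := by
    ext i j
    rw [Matrix.mul_diagonal, Matrix.diagonal_mul]
    simp only [Wm, of_apply]
    by_cases hj : j.val = i.val + 1
    · rw [if_pos hj, one_mul, mul_one, hD, hd]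
      show (if j.val = 0 then kk else if j.val = 1 then ki else 1)
        = (if i.val = 0 then ki else if i.val = n then kk else 1)
      by_cases hi0 : i.val = 0
      · rw [if_pos hi0, if_neg (by omega), if_pos (by omega)]
      · rw [if_neg hi0, if_neg (by omega), if_neg (by omega), if_neg (by have := j.isLt; omega)]
    · rw [if_neg hj]
      by_cases hin : i.val = n ∧ j.val = 0
      · rw [if_pos hin, hD, hd]
        show (-1 : F) ^ n * (if j.val = 0 then kk else if j.val = 1 then ki else 1)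
          = (if i.val = 0 then ki else if i.val = n then kk else 1) * (-1) ^ n
        rw [if_pos hin.2, if_neg (by omega), if_pos hin.1, mul_comm]
      · rw [if_neg hin, zero_mul, mul_zero]
  obtain ⟨E, hE⟩ : ∃ E : Matrix (Fin (n + 1)) (Fin (n + 1)) F,
      E = vecMulVec (Pi.single (0 : Fin (n + 1)) (1 : F)) (Pi.single (1 : Fin (n + 1)) (1 : F)) :=
    ⟨_, rfl⟩
  have hxE : (x : Matrix (Fin (n + 1)) (Fin (n + 1)) F)
      = diagonal (fun _ => (1 : F)) + (1 : F) • E := by
    rw [hx, Matrix.transvection, single_eq_vecMulVec, hE, one_smul, Matrix.diagonal_one]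
  have hconj : ((x * w * h * (x * w)⁻¹ : Matrix.SpecialLinearGroup (Fin (n + 1)) F) :
      Matrix (Fin (n + 1)) (Fin (n + 1)) F) = diagonal d + (d 1 - d 0) • E := by
    apply conj_coe
    rw [Matrix.SpecialLinearGroup.coe_mul, hh, hw, mul_assoc, hWD, ← mul_assoc, ← mul_assoc]
    congr 1
    rw [hxE]
    have e2 : (fun i => 1 * d i) = (fun i => d i * 1) := by
      ext i
      ring
    have e3 : (1 * 0 + 1 * d 1 : F) = d 0 * 1 + (d 1 - d 0) * 1 := by ring
    calc (diagonal (fun _ => (1 : F)) + (1 : F) • E) * diagonal d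
        = (diagonal (fun _ => (1 : F)) + (1 : F) • E) * (diagonal d + (0 : F) • E) := by
          rw [zero_smul, add_zero]
      _ = diagonal (fun i => 1 * d i) + (1 * 0 + 1 * d 1) • E := by
          rw [hE]
          exact DE_mul 0 1 h01 _ _ _ _
      _ = diagonal (fun i => d i * 1) + (d 0 * 1 + (d 1 - d 0) * 1) • E := by
          rw [e2, e3]
      _ = (diagonal d + (d 1 - d 0) • E) * (diagonal (fun _ => (1 : F)) + (1 : F) • E) := by
          rw [hE]
          exact (DE_mul 0 1 h01 _ _ _ _).symm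
  have hh'H : InH H (diagonal d + (d 1 - d 0) • E) :=
    ⟨_, H.mul_mem (H.mul_mem hgH hhH) (H.inv_mem hgH), hconj⟩
  have hhInH : InH H (diagonal D) := ⟨h, hhH, hh⟩
  have hki0 : ki ≠ 0 := fun h => by
    rw [h, mul_zero] at hkki
    exact zero_ne_one hkki
  have hkk0 : kk ≠ 0 := fun h => by
    rw [h, zero_mul] at hkki
    exact zero_ne_one hkki
  have hne : kk - ki ≠ 0 := by
    intro h
    apply hk2
    have e : kk = ki := sub_eq_zero.1 h
    calc kk * kk = kk * ki := by rw [← e]
      _ = 1 := hkki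
  have hne1 : 1 - ki ≠ 0 := by
    intro h
    apply hk1
    have e : ki = 1 := (sub_eq_zero.1 h).symm
    rw [e, mul_one] at hkki
    exact hkki
  obtain ⟨c, hc0, hc⟩ : ∃ c : F, c ≠ 0 ∧
      D 0 * (d 1 - d 0) = (d 1 - d 0) * D 1 + c * (d 1 * D 1) := by
    rw [hD0, hD1, hd0]
    rcases hd1 with h | h
    · rw [h]
      refine ⟨(kk - ki) * (kk - ki), mul_ne_zero hne hne, ?_⟩
      linear_combination (-(kk - ki) * (kk - ki)) * hkki
    · rw [h]
      refine ⟨(1 - ki) * (kk - ki) * kk, mul_ne_zero (mul_ne_zero hne1 hne) hkk0, ?_⟩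
      linear_combination (-(1 - ki) * (kk - ki)) * hkki
  have hT : InH H (1 + vecMulVec (Pi.single (0 : Fin (n + 1)) c)
      (Pi.single (1 : Fin (n + 1)) (1 : F))) := by
    have hAB : InH H (diagonal D * (diagonal d + (d 1 - d 0) • E)) := inH_mul hhInH hh'H
    have hBA : InH H ((diagonal d + (d 1 - d 0) • E) * diagonal D) := inH_mul hh'H hhInH
    apply inH_of_mul_eq hAB hBA
    have e1 : (1 : Matrix (Fin (n + 1)) (Fin (n + 1)) F)
        + vecMulVec (Pi.single (0 : Fin (n + 1)) c) (Pi.single (1 : Fin (n + 1)) (1 : F))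
        = diagonal (fun _ => (1 : F)) + c • E := by
      rw [Matrix.diagonal_one, hE, ← smul_vecMulVec, ← Pi.single_smul, smul_eq_mul, mul_one]
    have e2 : diagonal D * (diagonal d + (d 1 - d 0) • E)
        = diagonal (fun i => D i * d i) + (D 0 * (d 1 - d 0) + 0 * d 1) • E := by
      have h := DE_mul (0 : Fin (n + 1)) 1 h01 D d 0 (d 1 - d 0)
      rw [zero_smul, add_zero, ← hE] at h
      exact h
    have e3 : (diagonal d + (d 1 - d 0) • E) * diagonal D
        = diagonal (fun i => d i * D i) + (d 0 * 0 + (d 1 - d 0) * D 1) • E := by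
      have h := DE_mul (0 : Fin (n + 1)) 1 h01 d D (d 1 - d 0) 0
      rw [zero_smul, add_zero, ← hE] at h
      exact h
    have e4 : (diagonal (fun _ => (1 : F)) + c • E)
        * (diagonal (fun i => d i * D i) + (d 0 * 0 + (d 1 - d 0) * D 1) • E)
        = diagonal (fun i => 1 * (d i * D i))
          + (1 * (d 0 * 0 + (d 1 - d 0) * D 1) + c * (d 1 * D 1)) • E := by
      have h := DE_mul (0 : Fin (n + 1)) 1 h01 (fun _ => (1 : F)) (fun i => d i * D i) c
        (d 0 * 0 + (d 1 - d 0) * D 1)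
      rw [← hE] at h
      exact h
    have e5 : (fun i => D i * d i) = (fun i => 1 * (d i * D i)) := by
      ext i
      ring
    have e6 : D 0 * (d 1 - d 0) + 0 * d 1
        = 1 * (d 0 * 0 + (d 1 - d 0) * D 1) + c * (d 1 * D 1) := by
      linear_combination hc
    rw [e1, e2, e3, e4, e5, e6]
  have hS : ∀ m ∈ ({kk * kk} : Set F), ∀ t : F,
      InH H (1 + vecMulVec (Pi.single (0 : Fin (n + 1)) t)
        (Pi.single (1 : Fin (n + 1)) (1 : F))) →
      InH H (1 + vecMulVec (Pi.single (0 : Fin (n + 1)) (m * t))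
        (Pi.single (1 : Fin (n + 1)) (1 : F))) := by
    intro m hm t ht
    rw [Set.mem_singleton_iff] at hm
    rw [hm]
    have h := inH_tv_conj hhInH ht (φ' := Pi.single (1 : Fin (n + 1)) kk)
      (by rw [single_vecMul_diagonal, hD1, hkki])
    rw [diagonal_mulVec_single, hD0] at h
    have e : vecMulVec (Pi.single (0 : Fin (n + 1)) (kk * t)) (Pi.single (1 : Fin (n + 1)) kk)
        = vecMulVec (Pi.single (0 : Fin (n + 1)) (kk * kk * t))
          (Pi.single (1 : Fin (n + 1)) (1 : F)) := by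
      ext a b
      rw [vecMulVec_apply, vecMulVec_apply, Pi.single_apply, Pi.single_apply, Pi.single_apply,
        Pi.single_apply]
      split_ifs <;> ring
    rw [e] at h
    exact h
  have hX := all_of_scal H (0 : Fin (n + 1)) 1 h01 {kk * kk} hcl c hc0 hT hS
  have hxH : x ∈ H := by
    obtain ⟨y, hy, hym⟩ := hX 1
    have e : y = x := by
      apply Subtype.ext
      rw [hym, hx, Matrix.transvection, single_eq_vecMulVec]
    rw [← e]
    exact hy
  have hwH : w ∈ H := by
    have e : w = x⁻¹ * (x * w) := by group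
    rw [e]
    exact H.mul_mem (H.inv_mem hxH) hgH
  exact core hn 0 1 iL h0 h1 hL H ⟨w, hwH, hw⟩ hX

end big

end Cfsg.Agent.Helper20.SteinGen
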